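import Mathlib

set_option autoImplicit false

namespace Cfsg.Agent.Lib.Helper63.H581

open Equiv Equiv.Perm MulAction

/-- elements of `K` commuting with `t` -/
def cen {Γ : Type*} [Group Γ] (K : Subgroup Γ) (t : Γ) : Subgroup Γ where
  carrier := {g | g ∈ K ∧ g * t = t * g}
  mul_mem' := by
    rintro g h ⟨hg, hg'⟩ ⟨hh, hh'⟩
    exact ⟨K.mul_mem hg hh, by rw [mul_assoc, hh', ← mul_assoc, hg', mul_assoc]⟩
  one_mem' := ⟨K.one_mem, by simp⟩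
  inv_mem' := by
    rintro g ⟨hg, hg'⟩
    refine ⟨K.inv_mem hg, ?_⟩
    have h1 : g⁻¹ * (g * t) * g⁻¹ = g⁻¹ * (t * g) * g⁻¹ := by rw [hg']
    simpa [mul_assoc] using h1.symm

theorem mem_cen {Γ : Type*} [Group Γ] {K : Subgroup Γ} {t g : Γ} :
    g ∈ cen K t ↔ g ∈ K ∧ g * t = t * g := Iff.rfl

theorem cen_le {Γ : Type*} [Group Γ] (K : Subgroup Γ) (t : Γ) : cen K t ≤ K := fun _ h => h.1

/-- the involutions (or `1`) in the coset `H a` -/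
def jset {Γ : Type*} [Group Γ] (H : Subgroup Γ) (a : Γ) : Set Γ :=
  {s | s * s = 1 ∧ ∃ h ∈ H, s = h * a}

/-- pairs `(s, t)` of involutions in `H a`, `H b` whose product has "involution part" `r` -/
def fib {Γ : Type*} [Group Γ] (H : Subgroup Γ) (a b r : Γ) : Set (Γ × Γ) :=
  {q | q.1 ∈ jset H a ∧ q.2 ∈ jset H b ∧
    (q.1 * q.2) ^ orderOf ((q.1 * q.2) * (q.1 * q.2)) = r}

variable {α : Type*}

/-- elements of `K` fixing the four points of `x` -/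
def fx (K : Subgroup (Perm α)) (x : Fin 4 ↪ α) : Subgroup (Perm α) where
  carrier := {g | g ∈ K ∧ ∀ j, g (x j) = x j}
  mul_mem' := by
    rintro g h ⟨hg, hg'⟩ ⟨hh, hh'⟩
    exact ⟨K.mul_mem hg hh, fun j => by rw [Perm.mul_apply, hh', hg']⟩
  one_mem' := ⟨K.one_mem, fun _ => rfl⟩
  inv_mem' := by
    rintro g ⟨hg, hg'⟩
    exact ⟨K.inv_mem hg, fun j => by rw [Equiv.Perm.inv_eq_iff_eq, hg']⟩

theorem mem_fx {K : Subgroup (Perm α)} {x : Fin 4 ↪ α} {g : Perm α} :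
    g ∈ fx K x ↔ g ∈ K ∧ ∀ j, g (x j) = x j := Iff.rfl

theorem fx_le (K : Subgroup (Perm α)) (x : Fin 4 ↪ α) : fx K x ≤ K := fun _ h => h.1

/-- `t` acts on the tuple `x` by the pattern `π` -/
def pat (t : Perm α) (π : Perm (Fin 4)) : Set (Fin 4 ↪ α) := {x | ∀ j, t (x j) = x (π j)}

theorem mem_pat {t : Perm α} {π : Perm (Fin 4)} {x : Fin 4 ↪ α} :
    x ∈ pat t π ↔ ∀ j, t (x j) = x (π j) := Iff.rfl

theorem forall_fin4 {P : Fin 4 → Prop} : (∀ j, P j) ↔ P 0 ∧ P 1 ∧ P 2 ∧ P 3 := by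
  constructor
  · intro h; exact ⟨h 0, h 1, h 2, h 3⟩
  · rintro ⟨h0, h1, h2, h3⟩ j
    fin_cases j
    · exact h0
    · exact h1
    · exact h2
    · exact h3

/-- pattern `(2 3)` -/
theorem mem_pat1 {t : Perm α} {x : Fin 4 ↪ α} : x ∈ pat t (swap 2 3) ↔
    t (x 0) = x 0 ∧ t (x 1) = x 1 ∧ t (x 2) = x 3 ∧ t (x 3) = x 2 := by
  have h0 : (swap 2 3 : Perm (Fin 4)) 0 = 0 := by decide
  have h1 : (swap 2 3 : Perm (Fin 4)) 1 = 1 := by decide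
  have h2 : (swap 2 3 : Perm (Fin 4)) 2 = 3 := by decide
  have h3 : (swap 2 3 : Perm (Fin 4)) 3 = 2 := by decide
  rw [mem_pat, forall_fin4, h0, h1, h2, h3]

/-- pattern `(0 1)` -/
theorem mem_pat0 {t : Perm α} {x : Fin 4 ↪ α} : x ∈ pat t (swap 0 1) ↔
    t (x 0) = x 1 ∧ t (x 1) = x 0 ∧ t (x 2) = x 2 ∧ t (x 3) = x 3 := by
  have h0 : (swap 0 1 : Perm (Fin 4)) 0 = 1 := by decide
  have h1 : (swap 0 1 : Perm (Fin 4)) 1 = 0 := by decide
  have h2 : (swap 0 1 : Perm (Fin 4)) 2 = 2 := by decide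
  have h3 : (swap 0 1 : Perm (Fin 4)) 3 = 3 := by decide
  rw [mem_pat, forall_fin4, h0, h1, h2, h3]

/-- pattern `(0 1)(2 3)` -/
theorem mem_pat2 {t : Perm α} {x : Fin 4 ↪ α} : x ∈ pat t (swap 0 1 * swap 2 3) ↔
    t (x 0) = x 1 ∧ t (x 1) = x 0 ∧ t (x 2) = x 3 ∧ t (x 3) = x 2 := by
  have h0 : (swap 0 1 * swap 2 3 : Perm (Fin 4)) 0 = 1 := by decide
  have h1 : (swap 0 1 * swap 2 3 : Perm (Fin 4)) 1 = 0 := by decide
  have h2 : (swap 0 1 * swap 2 3 : Perm (Fin 4)) 2 = 3 := by decide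
  have h3 : (swap 0 1 * swap 2 3 : Perm (Fin 4)) 3 = 2 := by decide
  rw [mem_pat, forall_fin4, h0, h1, h2, h3]

/-- pattern `(0 2)(1 3)` -/
theorem mem_pat3 {t : Perm α} {x : Fin 4 ↪ α} : x ∈ pat t (swap 0 2 * swap 1 3) ↔
    t (x 0) = x 2 ∧ t (x 1) = x 3 ∧ t (x 2) = x 0 ∧ t (x 3) = x 1 := by
  have h0 : (swap 0 2 * swap 1 3 : Perm (Fin 4)) 0 = 2 := by decide
  have h1 : (swap 0 2 * swap 1 3 : Perm (Fin 4)) 1 = 3 := by decide
  have h2 : (swap 0 2 * swap 1 3 : Perm (Fin 4)) 2 = 0 := by decide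
  have h3 : (swap 0 2 * swap 1 3 : Perm (Fin 4)) 3 = 1 := by decide
  rw [mem_pat, forall_fin4, h0, h1, h2, h3]

/-- the 4-tuple `(p, q, r, s)` -/
def mk4 (p q r s : α) (h : p ≠ q ∧ p ≠ r ∧ p ≠ s ∧ q ≠ r ∧ q ≠ s ∧ r ≠ s) : Fin 4 ↪ α where
  toFun := ![p, q, r, s]
  inj' := by
    obtain ⟨h1, h2, h3, h4, h5, h6⟩ := h
    intro i j hij
    fin_cases i <;> fin_cases j <;> simp_all

@[simp] theorem mk4_zero (p q r s : α) (h) : mk4 p q r s h 0 = p := rfl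
@[simp] theorem mk4_one (p q r s : α) (h) : mk4 p q r s h 1 = q := rfl
@[simp] theorem mk4_two (p q r s : α) (h) : mk4 p q r s h 2 = r := rfl
@[simp] theorem mk4_three (p q r s : α) (h) : mk4 p q r s h 3 = s := rfl

/-- two tuples agreeing at the four indices are equal -/
theorem emb4_ext {x y : Fin 4 ↪ α} (h0 : x 0 = y 0) (h1 : x 1 = y 1) (h2 : x 2 = y 2)
    (h3 : x 3 = y 3) : x = y := by
  ext j
  exact (forall_fin4 (P := fun j => x j = y j)).2 ⟨h0, h1, h2, h3⟩ j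

variable [Fintype α] [DecidableEq α]

/-- points fixed by `a`, moved by `b` -/
def fAB (a b : Perm α) : Finset α := Finset.univ.filter fun p => a p = p ∧ b p ≠ p

/-- points on which `⟨a, b⟩` acts freely -/
def fR (a b : Perm α) : Finset α :=
  Finset.univ.filter fun r => a r ≠ r ∧ b r ≠ r ∧ a (b r) ≠ r

theorem mem_fAB {a b : Perm α} {p : α} : p ∈ fAB a b ↔ a p = p ∧ b p ≠ p := by
  simp [fAB]

theorem mem_fR {a b : Perm α} {r : α} : r ∈ fR a b ↔ a r ≠ r ∧ b r ≠ r ∧ a (b r) ≠ r := by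
  simp [fR]

end Cfsg.Agent.Lib.Helper63.H581
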