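import Mathlib
import Cfsg.Agent.Lib.Helper63.H581.Defs

set_option autoImplicit false

namespace Cfsg.Agent.Lib.Helper63.H581

open Equiv Equiv.Perm MulAction

theorem fAB_eq {α : Type*} [Fintype α] [DecidableEq α] (a b : Perm α) (hb2 : b * b = 1)
    (hab : a * b = b * a) (p q : α) (hpq : p ≠ q) (hap : a p = p) (haq : a q = q) (hbp : b p = q)
    (hle : Fintype.card α ≤ a.support.card + 3) : fAB a b = {p, q} := by
  have hbb : ∀ z, b (b z) = z := fun z => by rw [← Perm.mul_apply, hb2]; rfl
  have habz : ∀ z, a (b z) = b (a z) := fun z => by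
    rw [← Perm.mul_apply, hab, Perm.mul_apply]
  have hbq : b q = p := by rw [← hbp, hbb]
  ext z
  rw [mem_fAB, Finset.mem_insert, Finset.mem_singleton]
  constructor
  · rintro ⟨haz, hbz⟩
    by_contra hcon
    push Not at hcon
    obtain ⟨hzp, hzq⟩ := hcon
    have h1 : a (b z) = b z := by rw [habz, haz]
    have h2 : b z ≠ p := by
      intro h
      apply hzq
      rw [← hbb z, h, hbp]
    have h3 : b z ≠ q := by
      intro h
      apply hzp
      rw [← hbb z, h, hbq]
    have hsub : ({p, q, z, b z} : Finset α) ⊆ a.supportᶜ := by
      intro w hw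
      rw [Finset.mem_compl, Perm.mem_support, not_not]
      simp only [Finset.mem_insert, Finset.mem_singleton] at hw
      rcases hw with rfl | rfl | rfl | rfl
      · exact hap
      · exact haq
      · exact haz
      · exact h1
    have hcard : ({p, q, z, b z} : Finset α).card = 4 := by
      rw [Finset.card_insert_of_notMem, Finset.card_insert_of_notMem,
        Finset.card_insert_of_notMem, Finset.card_singleton]
      · simp only [Finset.mem_singleton]
        exact fun h => hbz h.symm
      · simp only [Finset.mem_insert, Finset.mem_singleton, not_or]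
        exact ⟨fun h => hzq h.symm, fun h => h3 h.symm⟩
      · simp only [Finset.mem_insert, Finset.mem_singleton, not_or]
        exact ⟨hpq, fun h => hzp h.symm, fun h => h2 h.symm⟩
    have h5 := Finset.card_le_card hsub
    rw [hcard, Finset.card_compl] at h5
    have h6 : a.support.card ≤ Fintype.card α := Finset.card_le_univ _
    omega
  · rintro (rfl | rfl)
    · exact ⟨hap, by rw [hbp]; exact hpq.symm⟩
    · exact ⟨haq, by rw [hbq]; exact hpq⟩

end Cfsg.Agent.Lib.Helper63.H581
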