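import Mathlib

set_option autoImplicit false

namespace Cfsg.Agent.Lib.Helper63.H581

theorem arith (i m ρ h c0 c1 y X Z W : ℕ) (hi : i = 2 ∨ i = 3) (hm : m = 4 + ρ)
    (hX : 0 < X) (hh : 0 < h)
    (e1 : Z = i * (i - 1) * m * y) (e2 : Z = m * (m - 2) * X) (e3 : W = 4 * c0)
    (e4 : W = ρ * c1) (e5 : h * c0 ^ 2 = y * y * X) (e6 : h * c1 ^ 2 = X * X * X) :
    i = 3 ∧ ρ = 4 := by
  have k1 : 4 * c0 = ρ * c1 := e3.symm.trans e4
  have k2 : (4 * y) ^ 2 * X = (ρ * X) ^ 2 * X := by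
    calc (4 * y) ^ 2 * X = 16 * (y * y * X) := by ring
      _ = 16 * (h * c0 ^ 2) := by rw [e5]
      _ = h * (4 * c0) ^ 2 := by ring
      _ = h * (ρ * c1) ^ 2 := by rw [k1]
      _ = ρ ^ 2 * (h * c1 ^ 2) := by ring
      _ = ρ ^ 2 * (X * X * X) := by rw [e6]
      _ = (ρ * X) ^ 2 * X := by ring
  have k3 : (4 * y) ^ 2 = (ρ * X) ^ 2 := Nat.eq_of_mul_eq_mul_right hX k2
  have k4 : 4 * y = ρ * X := Nat.pow_left_injective (n := 2) (by norm_num) k3
  have hmpos : 0 < m := by omega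
  have k5 : i * (i - 1) * y = (m - 2) * X := by
    have : m * (i * (i - 1) * y) = m * ((m - 2) * X) := by
      calc m * (i * (i - 1) * y) = i * (i - 1) * m * y := by ring
        _ = m * (m - 2) * X := e1.symm.trans e2
        _ = m * ((m - 2) * X) := by ring
    exact Nat.eq_of_mul_eq_mul_left hmpos this
  have k6 : (i * (i - 1) * ρ) * X = (4 * (m - 2)) * X := by
    calc (i * (i - 1) * ρ) * X = i * (i - 1) * (ρ * X) := by ring
      _ = i * (i - 1) * (4 * y) := by rw [k4]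
      _ = 4 * (i * (i - 1) * y) := by ring
      _ = 4 * ((m - 2) * X) := by rw [k5]
      _ = (4 * (m - 2)) * X := by ring
  have k7 : i * (i - 1) * ρ = 4 * (m - 2) := Nat.eq_of_mul_eq_mul_right hX k6
  rcases hi with rfl | rfl
  · exfalso
    simp only [Nat.add_one_sub_one] at k7
    omega
  · refine ⟨rfl, ?_⟩
    simp only [Nat.add_one_sub_one] at k7
    omega

end Cfsg.Agent.Lib.Helper63.H581
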