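import Mathlib
import Cfsg.Agent.Lib.Helper63.H581.Defs

set_option autoImplicit false

namespace Cfsg.Agent.Lib.Helper63.H581

theorem bwc_comm {Γ : Type*} [Group Γ] (x g c : Γ) (k : ℕ) (hx : x * g * x⁻¹ = g⁻¹)
    (hg : g ^ k = c) (hc : c * c = 1) : Commute x c := by
  have h1 : x * c * x⁻¹ = c := by
    rw [← hg, ← conj_pow, hx, inv_pow, hg, inv_eq_iff_mul_eq_one]
    exact hc
  show x * c = c * x
  calc x * c = x * c * x⁻¹ * x := by group
    _ = c * x := by rw [h1]

theorem bwc_mem {Γ : Type*} [Group Γ] (H : Subgroup Γ) (a c x : Γ) (hac : Commute a c)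
    (hxc : Commute x c) (hx : x ∈ jset H a) : x ∈ jset (cen H c) a := by
  obtain ⟨hx1, h, hh, rfl⟩ := hx
  refine ⟨hx1, h, ⟨hh, ?_⟩, rfl⟩
  have h1 : Commute (h * a * a⁻¹) c := hxc.mul_left hac.inv_left
  rw [mul_inv_cancel_right] at h1
  exact h1

theorem fibre_c {Γ : Type*} [Group Γ] [Finite Γ] (H : Subgroup Γ) (hodd : Odd (Nat.card H))
    (a b : Γ) (ha : a * a = 1) (hb : b * b = 1) (hab : a * b = b * a)
    (haN : ∀ h ∈ H, a * h * a⁻¹ ∈ H) (hbN : ∀ h ∈ H, b * h * b⁻¹ ∈ H) (s t : Γ)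
    (hs : s ∈ jset H a) (ht : t ∈ jset H b) :
    (s * t) ^ orderOf ((s * t) * (s * t)) = a * b ↔
      s ∈ jset (cen H (a * b)) a ∧ t ∈ jset (cen H (a * b)) b := by
  have hcab : Commute a b := hab
  have hc : a * b * (a * b) = 1 := by
    calc a * b * (a * b) = a * (b * a) * b := by group
      _ = a * (a * b) * b := by rw [hab]
      _ = (a * a) * (b * b) := by group
      _ = 1 := by rw [ha, hb, one_mul]
  have hac : Commute a (a * b) := (Commute.refl a).mul_right hcab
  have hbc : Commute b (a * b) := hcab.symm.mul_right (Commute.refl b)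
  have hsinv : s⁻¹ = s := by rw [inv_eq_iff_mul_eq_one]; exact hs.1
  have htinv : t⁻¹ = t := by rw [inv_eq_iff_mul_eq_one]; exact ht.1
  constructor
  · intro hk
    have e1 : s * (s * t) * s⁻¹ = (s * t)⁻¹ := by
      rw [mul_inv_rev, hsinv, htinv, ← mul_assoc, hs.1, one_mul]
    have e2 : t * (s * t) * t⁻¹ = (s * t)⁻¹ := by
      rw [mul_inv_rev, hsinv, htinv, mul_assoc, mul_assoc, ht.1, mul_one]
    exact ⟨bwc_mem H a _ s hac (bwc_comm s _ _ _ e1 hk hc) hs,
      bwc_mem H b _ t hbc (bwc_comm t _ _ _ e2 hk hc) ht⟩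
  · rintro ⟨⟨-, h, ⟨hh, hhc⟩, rfl⟩, ⟨-, h', ⟨hh', hhc'⟩, rfl⟩⟩
    set c := a * b with hcdef
    set w := h * (a * h' * a⁻¹) with hw
    have hwH : w ∈ H := H.mul_mem hh (haN _ hh')
    have hwc : Commute w c := by
      have c1 : Commute h c := hhc
      have c2 : Commute h' c := hhc'
      exact c1.mul_left ((hac.mul_left c2).mul_left hac.inv_left)
    have hg : h * a * (h' * b) = w * c := by
      rw [hw, hcdef]; group
    have hgg : w * c * (w * c) = w * w := by
      calc w * c * (w * c) = w * (c * w) * c := by group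
        _ = w * (w * c) * c := by rw [hwc.eq]
        _ = w * w * (c * c) := by group
        _ = w * w := by rw [hc, mul_one]
    have hwodd : Odd (orderOf w) := by
      have h1 : orderOf w ∣ Nat.card H := by
        have := orderOf_dvd_natCard (⟨w, hwH⟩ : H)
        rwa [Subgroup.orderOf_mk] at this
      exact Odd.of_dvd_nat hodd h1
    have hord : orderOf (w * w) = orderOf w := by
      rw [← pow_two]
      exact Nat.Coprime.orderOf_pow (Nat.Coprime.symm (Nat.coprime_two_left.2 hwodd))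
    rw [hg, hgg, hord, hwc.mul_pow, pow_orderOf_eq_one, one_mul]
    obtain ⟨j, hj⟩ := hwodd
    rw [hj, pow_add, pow_mul, pow_two, hc, one_pow, one_mul, pow_one]

end Cfsg.Agent.Lib.Helper63.H581
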