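import Mathlib
import Cfsg.Agent.Lib.Helper63.H581.Defs
import Cfsg.Agent.Lib.Helper63.H581.BWC

set_option autoImplicit false

namespace Cfsg.Agent.Lib.Helper63.H581

theorem bwc2_jset_mono {Γ : Type*} [Group Γ] (H : Subgroup Γ) (c a s : Γ)
    (hs : s ∈ jset (cen H c) a) : s ∈ jset H a := by
  obtain ⟨h1, h, hh, rfl⟩ := hs
  exact ⟨h1, h, hh.1, rfl⟩

theorem card_fib_c {Γ : Type*} [Group Γ] [Finite Γ] (H : Subgroup Γ) (hodd : Odd (Nat.card H))
    (a b : Γ) (ha : a * a = 1) (hb : b * b = 1) (hab : a * b = b * a)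
    (haN : ∀ h ∈ H, a * h * a⁻¹ ∈ H) (hbN : ∀ h ∈ H, b * h * b⁻¹ ∈ H) :
    Nat.card (fib H a b (a * b)) =
      Nat.card (jset (cen H (a * b)) a) * Nat.card (jset (cen H (a * b)) b) := by
  have e : fib H a b (a * b) = (jset (cen H (a * b)) a) ×ˢ (jset (cen H (a * b)) b) := by
    ext ⟨s, t⟩
    constructor
    · rintro ⟨h1, h2, h3⟩
      exact (fibre_c H hodd a b ha hb hab haN hbN s t h1 h2).1 h3
    · rintro ⟨h1, h2⟩
      have h1' := bwc2_jset_mono H _ _ _ h1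
      have h2' := bwc2_jset_mono H _ _ _ h2
      exact ⟨h1', h2', (fibre_c H hodd a b ha hb hab haN hbN s t h1' h2').2 ⟨h1, h2⟩⟩
  rw [e, Nat.card_congr (Equiv.Set.prod _ _), Nat.card_prod]

end Cfsg.Agent.Lib.Helper63.H581
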