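import Mathlib
import Cfsg.Agent.Lib.Helper63.H581.Defs

set_option autoImplicit false

namespace Cfsg.Agent.Lib.Helper63.H581

theorem dih_conj {Γ : Type*} [Group Γ] (s t : Γ) (hs : s * s = 1) (ht : t * t = 1)
    (hodd : Odd (orderOf (s * t))) : ∃ h ∈ Subgroup.zpowers (s * t), h * t * h⁻¹ = s := by
  obtain ⟨j, hj⟩ := hodd
  have htinv : t⁻¹ = t := inv_eq_of_mul_eq_one_left ht
  have hsinv : s⁻¹ = s := inv_eq_of_mul_eq_one_left hs
  -- t inverts w
  have hinv : t * (s * t) * t⁻¹ = (s * t)⁻¹ := by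
    rw [mul_inv_rev, htinv, hsinv]
    calc t * (s * t) * t = t * s * (t * t) := by group
      _ = t * s := by rw [ht, mul_one]
  have hpow : ∀ n : ℕ, t * (s * t) ^ n * t⁻¹ = ((s * t) ^ n)⁻¹ := by
    intro n
    rw [← conj_pow, hinv, inv_pow]
  refine ⟨(s * t) ^ (j + 1), Subgroup.pow_mem _ (Subgroup.mem_zpowers _) _, ?_⟩
  have h1 : ((s * t) ^ (j + 1))⁻¹ = t * (s * t) ^ (j + 1) * t⁻¹ := (hpow _).symm
  rw [h1, htinv]
  have h2 : (s * t) ^ (j + 1) * (s * t) ^ (j + 1) = s * t := by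
    rw [← pow_add]
    have : j + 1 + (j + 1) = orderOf (s * t) + 1 := by omega
    rw [this, pow_succ, pow_orderOf_eq_one, one_mul]
  calc (s * t) ^ (j + 1) * t * (t * (s * t) ^ (j + 1) * t)
      = (s * t) ^ (j + 1) * (t * t) * (s * t) ^ (j + 1) * t := by group
    _ = (s * t) ^ (j + 1) * (s * t) ^ (j + 1) * t := by rw [ht, mul_one]
    _ = s * t * t := by rw [h2]
    _ = s := by rw [mul_assoc, ht, mul_one]

end Cfsg.Agent.Lib.Helper63.H581
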