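import Mathlib
import Cfsg.Agent.Lib.Helper63.H581.Defs
import Cfsg.Agent.Lib.Helper63.H581.DIH

set_option autoImplicit false

namespace Cfsg.Agent.Lib.Helper63.H581

theorem bwt_odd_orderOf {Γ : Type*} [Group Γ] [Finite Γ] (H : Subgroup Γ)
    (hodd : Odd (Nat.card H)) (h : Γ) (hh : h ∈ H) : Odd (orderOf h) := by
  have h1 : orderOf h ∣ Nat.card H := by
    have := orderOf_dvd_natCard (⟨h, hh⟩ : H)
    rwa [Subgroup.orderOf_mk] at this
  exact Odd.of_dvd_nat hodd h1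

theorem jset_conj {Γ : Type*} [Group Γ] [Finite Γ] (H : Subgroup Γ) (hodd : Odd (Nat.card H))
    (c : Γ) (hc : c * c = 1) (r : Γ) (hr : r ∈ jset H c) : ∃ u ∈ H, u * c * u⁻¹ = r := by
  obtain ⟨hr1, h, hh, rfl⟩ := hr
  have h1 : h * c * c = h := by rw [mul_assoc, hc, mul_one]
  have h2 : Odd (orderOf (h * c * c)) := by
    rw [h1]; exact bwt_odd_orderOf H hodd h hh
  obtain ⟨u, hu, hu'⟩ := dih_conj (h * c) c hr1 hc h2
  refine ⟨u, ?_, hu'⟩
  rw [h1] at hu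
  exact (Subgroup.zpowers_le.2 hh) hu

end Cfsg.Agent.Lib.Helper63.H581
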