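import Mathlib
import Cfsg.Agent.Lib.Helper63.H581.Defs
import Cfsg.Agent.Lib.Helper63.H581.BWT

set_option autoImplicit false

namespace Cfsg.Agent.Lib.Helper63.H581

theorem bwj_card_fibers {X Y : Type*} [Finite X] [Finite Y] (f : X → Y) (m : ℕ)
    (h : ∀ y, Nat.card {x // f x = y} = m) : Nat.card X = Nat.card Y * m := by
  classical
  haveI := Fintype.ofFinite Y
  rw [← Nat.card_congr (Equiv.sigmaFiberEquiv f), Nat.card_sigma]
  simp [h, Nat.card_eq_fintype_card]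

theorem bwj_mem {Γ : Type*} [Group Γ] (H : Subgroup Γ) (a : Γ) (ha : a * a = 1)
    (haN : ∀ h ∈ H, a * h * a⁻¹ ∈ H) (u : Γ) (hu : u ∈ H) : u * a * u⁻¹ ∈ jset H a := by
  refine ⟨?_, u * (a * u⁻¹ * a⁻¹), H.mul_mem hu (haN _ (H.inv_mem hu)), by group⟩
  calc u * a * u⁻¹ * (u * a * u⁻¹) = u * (a * a) * u⁻¹ := by group
    _ = 1 := by rw [ha]; group

theorem card_jset {Γ : Type*} [Group Γ] [Finite Γ] (H : Subgroup Γ) (hodd : Odd (Nat.card H))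
    (a : Γ) (ha : a * a = 1) (haN : ∀ h ∈ H, a * h * a⁻¹ ∈ H) :
    Nat.card (jset H a) * Nat.card (cen H a) = Nat.card H := by
  symm
  apply bwj_card_fibers (fun u : H => (⟨u * a * u⁻¹, bwj_mem H a ha haN u u.2⟩ : jset H a))
  rintro ⟨r, hr⟩
  obtain ⟨u0, hu0, hu0r⟩ := jset_conj H hodd a ha r hr
  refine Nat.card_congr
    { toFun := fun u => ⟨u0⁻¹ * u.1.1, H.mul_mem (H.inv_mem hu0) u.1.2, ?_⟩
      invFun := fun z => ⟨⟨u0 * z.1, H.mul_mem hu0 z.2.1⟩, ?_⟩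
      left_inv := ?_
      right_inv := ?_ }
  · have h1 : u.1.1 * a * u.1.1⁻¹ = r := congrArg Subtype.val u.2
    calc u0⁻¹ * u.1.1 * a = u0⁻¹ * (u.1.1 * a * u.1.1⁻¹) * u.1.1 := by group
      _ = u0⁻¹ * (u0 * a * u0⁻¹) * u.1.1 := by rw [h1, hu0r]
      _ = a * (u0⁻¹ * u.1.1) := by group
  · apply Subtype.ext
    show u0 * z.1 * a * (u0 * z.1)⁻¹ = r
    have h1 : z.1 * a = a * z.1 := z.2.2
    calc u0 * z.1 * a * (u0 * z.1)⁻¹ = u0 * (z.1 * a) * z.1⁻¹ * u0⁻¹ := by group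
      _ = u0 * (a * z.1) * z.1⁻¹ * u0⁻¹ := by rw [h1]
      _ = u0 * a * u0⁻¹ := by group
      _ = r := hu0r
  · rintro ⟨⟨u, hu⟩, hur⟩
    apply Subtype.ext
    apply Subtype.ext
    show u0 * (u0⁻¹ * u) = u
    group
  · rintro ⟨z, hz⟩
    apply Subtype.ext
    show u0⁻¹ * (u0 * z) = z
    group

end Cfsg.Agent.Lib.Helper63.H581
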