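import Mathlib
import Cfsg.Agent.Lib.Helper63.H581.Defs

set_option autoImplicit false

namespace Cfsg.Agent.Lib.Helper63.H581

theorem bwe_jset_conj {Γ : Type*} [Group Γ] (H : Subgroup Γ) (a : Γ)
    (haN : ∀ h ∈ H, a * h * a⁻¹ ∈ H) (u : Γ) (hu : u ∈ H) (s : Γ) (hs : s ∈ jset H a) :
    u * s * u⁻¹ ∈ jset H a := by
  obtain ⟨hs1, h, hh, rfl⟩ := hs
  refine ⟨?_, u * h * (a * u⁻¹ * a⁻¹), H.mul_mem (H.mul_mem hu hh) (haN _ (H.inv_mem hu)), ?_⟩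
  · calc u * (h * a) * u⁻¹ * (u * (h * a) * u⁻¹) = u * ((h * a) * (h * a)) * u⁻¹ := by group
      _ = 1 := by rw [hs1]; group
  · group

theorem bwe_fib_conj {Γ : Type*} [Group Γ] (H : Subgroup Γ) (a b : Γ)
    (haN : ∀ h ∈ H, a * h * a⁻¹ ∈ H) (hbN : ∀ h ∈ H, b * h * b⁻¹ ∈ H) (u : Γ) (hu : u ∈ H)
    (r : Γ) (q : Γ × Γ) (hq : q ∈ fib H a b r) :
    (u * q.1 * u⁻¹, u * q.2 * u⁻¹) ∈ fib H a b (u * r * u⁻¹) := by
  obtain ⟨h1, h2, h3⟩ := hq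
  refine ⟨bwe_jset_conj H a haN u hu _ h1, bwe_jset_conj H b hbN u hu _ h2, ?_⟩
  have e1 : u * q.1 * u⁻¹ * (u * q.2 * u⁻¹) = u * (q.1 * q.2) * u⁻¹ := by group
  have e2 : u * (q.1 * q.2) * u⁻¹ * (u * (q.1 * q.2) * u⁻¹)
      = u * (q.1 * q.2 * (q.1 * q.2)) * u⁻¹ := by group
  show (u * q.1 * u⁻¹ * (u * q.2 * u⁻¹)) ^
    orderOf (u * q.1 * u⁻¹ * (u * q.2 * u⁻¹) * (u * q.1 * u⁻¹ * (u * q.2 * u⁻¹))) = u * r * u⁻¹
  rw [e1, e2, conj_pow, ← h3]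
  congr 3
  have := orderOf_injective (MulAut.conj u).toMonoidHom (MulAut.conj u).injective
    (q.1 * q.2 * (q.1 * q.2))
  simpa [MulAut.conj_apply] using this

theorem card_fib_conj {Γ : Type*} [Group Γ] [Finite Γ] (H : Subgroup Γ) (a b : Γ)
    (haN : ∀ h ∈ H, a * h * a⁻¹ ∈ H) (hbN : ∀ h ∈ H, b * h * b⁻¹ ∈ H) (u : Γ) (hu : u ∈ H)
    (r : Γ) : Nat.card (fib H a b (u * r * u⁻¹)) = Nat.card (fib H a b r) := by
  symm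
  refine Nat.card_congr
    { toFun := fun q => ⟨(u * q.1.1 * u⁻¹, u * q.1.2 * u⁻¹), bwe_fib_conj H a b haN hbN u hu r q.1 q.2⟩
      invFun := fun q => ⟨(u⁻¹ * q.1.1 * u, u⁻¹ * q.1.2 * u), ?_⟩
      left_inv := ?_
      right_inv := ?_ }
  · have := bwe_fib_conj H a b haN hbN u⁻¹ (H.inv_mem hu) (u * r * u⁻¹) q.1 q.2
    have e : u⁻¹ * (u * r * u⁻¹) * u⁻¹⁻¹ = r := by group
    rw [e] at this
    simpa using this
  · rintro ⟨⟨s, t⟩, hq⟩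
    apply Subtype.ext
    apply Prod.ext
    · show u⁻¹ * (u * s * u⁻¹) * u = s
      group
    · show u⁻¹ * (u * t * u⁻¹) * u = t
      group
  · rintro ⟨⟨s, t⟩, hq⟩
    apply Subtype.ext
    apply Prod.ext
    · show u * (u⁻¹ * s * u) * u⁻¹ = s
      group
    · show u * (u⁻¹ * t * u) * u⁻¹ = t
      group

end Cfsg.Agent.Lib.Helper63.H581
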