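import Mathlib
import Cfsg.Agent.Lib.Helper63.H581.Defs

set_option autoImplicit false

namespace Cfsg.Agent.Lib.Helper63.H581

theorem iota_mem {Γ : Type*} [Group Γ] [Finite Γ] (H : Subgroup Γ) (hodd : Odd (Nat.card H))
    (c : Γ) (hc : c * c = 1) (hcN : ∀ h ∈ H, c * h * c⁻¹ ∈ H) (g : Γ) (hg : ∃ h ∈ H, g = h * c) :
    g ^ orderOf (g * g) ∈ jset H c := by
  obtain ⟨h, hh, rfl⟩ := hg
  have hgg : h * c * (h * c) ∈ H := by
    have h1 : h * c * (h * c) = h * (c * h * c⁻¹) := by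
      have : c⁻¹ = c := by rw [inv_eq_iff_mul_eq_one]; exact hc
      rw [this]; group
    rw [h1]
    exact H.mul_mem hh (hcN h hh)
  have hk : Odd (orderOf (h * c * (h * c))) := by
    have h1 : orderOf (h * c * (h * c)) ∣ Nat.card H := by
      have := orderOf_dvd_natCard (⟨_, hgg⟩ : H)
      rwa [Subgroup.orderOf_mk] at this
    exact Odd.of_dvd_nat hodd h1
  obtain ⟨j, hj⟩ := hk
  refine ⟨?_, (h * c * (h * c)) ^ j * h, H.mul_mem (H.pow_mem hgg j) hh, ?_⟩
  · rw [← pow_add, ← two_mul, pow_mul, pow_two, pow_orderOf_eq_one]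
  · rw [hj, pow_add, pow_mul, pow_two, pow_one, mul_assoc ((h * c * (h * c)) ^ j) h c]

end Cfsg.Agent.Lib.Helper63.H581
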