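import Mathlib
import Cfsg.Agent.Lib.Helper63.H581.Defs
import Cfsg.Agent.Lib.Helper63.H581.BWT
import Cfsg.Agent.Lib.Helper63.H581.BWI
import Cfsg.Agent.Lib.Helper63.H581.BWE
import Cfsg.Agent.Lib.Helper63.H581.BWJ

set_option autoImplicit false

namespace Cfsg.Agent.Lib.Helper63.H581

theorem bws_sq {Γ : Type*} [Group Γ] (a b : Γ) (ha : a * a = 1) (hb : b * b = 1)
    (hab : a * b = b * a) : a * b * (a * b) = 1 := by
  calc a * b * (a * b) = a * (b * a) * b := by group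
    _ = a * (a * b) * b := by rw [hab]
    _ = (a * a) * (b * b) := by group
    _ = 1 := by rw [ha, hb, one_mul]

theorem bws_norm {Γ : Type*} [Group Γ] (H : Subgroup Γ) (a b : Γ)
    (haN : ∀ h ∈ H, a * h * a⁻¹ ∈ H) (hbN : ∀ h ∈ H, b * h * b⁻¹ ∈ H) :
    ∀ h ∈ H, a * b * h * (a * b)⁻¹ ∈ H := by
  intro h hh
  have e : a * b * h * (a * b)⁻¹ = a * (b * h * b⁻¹) * a⁻¹ := by group
  rw [e]
  exact haN _ (hbN _ hh)

theorem bws_prod {Γ : Type*} [Group Γ] (H : Subgroup Γ) (a b : Γ)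
    (haN : ∀ h ∈ H, a * h * a⁻¹ ∈ H) (s t : Γ) (hs : s ∈ jset H a) (ht : t ∈ jset H b) :
    ∃ h ∈ H, s * t = h * (a * b) := by
  obtain ⟨-, h, hh, rfl⟩ := hs
  obtain ⟨-, h', hh', rfl⟩ := ht
  exact ⟨h * (a * h' * a⁻¹), H.mul_mem hh (haN _ hh'), by group⟩

theorem card_prod_jset {Γ : Type*} [Group Γ] [Finite Γ] (H : Subgroup Γ)
    (hodd : Odd (Nat.card H)) (a b : Γ) (ha : a * a = 1) (hb : b * b = 1) (hab : a * b = b * a)
    (haN : ∀ h ∈ H, a * h * a⁻¹ ∈ H) (hbN : ∀ h ∈ H, b * h * b⁻¹ ∈ H) :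
    Nat.card (jset H a) * Nat.card (jset H b) =
      Nat.card (jset H (a * b)) * Nat.card (fib H a b (a * b)) := by
  have hc := bws_sq a b ha hb hab
  have hcN := bws_norm H a b haN hbN
  rw [← Nat.card_prod]
  apply bwj_card_fibers (fun x : jset H a × jset H b =>
    (⟨(x.1.1 * x.2.1) ^ orderOf ((x.1.1 * x.2.1) * (x.1.1 * x.2.1)),
      iota_mem H hodd (a * b) hc hcN _ (bws_prod H a b haN _ _ x.1.2 x.2.2)⟩ : jset H (a * b)))
  rintro ⟨r, hr⟩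
  obtain ⟨u, hu, hur⟩ := jset_conj H hodd (a * b) hc r hr
  rw [← card_fib_conj H a b haN hbN u hu (a * b), hur]
  exact Nat.card_congr
    { toFun := fun x => ⟨(x.1.1.1, x.1.2.1), x.1.1.2, x.1.2.2, congrArg Subtype.val x.2⟩
      invFun := fun q => ⟨(⟨q.1.1, q.2.1⟩, ⟨q.1.2, q.2.2.1⟩), Subtype.ext q.2.2.2⟩
      left_inv := fun _ => rfl
      right_inv := fun _ => rfl }

end Cfsg.Agent.Lib.Helper63.H581
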