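import Mathlib
import Cfsg.Agent.Lib.Helper63.H581.Defs
import Cfsg.Agent.Lib.Helper63.H581.BWJ
import Cfsg.Agent.Lib.Helper63.H581.BWS
import Cfsg.Agent.Lib.Helper63.H581.BWC2

set_option autoImplicit false

namespace Cfsg.Agent.Lib.Helper63.H581

theorem bw_cen_norm {Γ : Type*} [Group Γ] (H : Subgroup Γ) (a c : Γ) (hac : Commute a c)
    (haN : ∀ h ∈ H, a * h * a⁻¹ ∈ H) : ∀ h ∈ cen H c, a * h * a⁻¹ ∈ cen H c := by
  rintro h ⟨hh, hhc⟩
  have c1 : Commute h c := hhc
  exact ⟨haN h hh, (hac.mul_left c1).mul_left hac.inv_left⟩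

theorem bw_cen_a {Γ : Type*} [Group Γ] (H : Subgroup Γ) (a b : Γ) :
    cen (cen H (a * b)) a = cen (cen H a) b := by
  ext g
  constructor
  · rintro ⟨⟨hg, h1⟩, h2⟩
    refine ⟨⟨hg, h2⟩, ?_⟩
    have e : a * (g * b) = a * (b * g) := by
      calc a * (g * b) = (a * g) * b := by group
        _ = (g * a) * b := by rw [h2]
        _ = g * (a * b) := by group
        _ = a * b * g := h1
        _ = a * (b * g) := by group
    exact mul_left_cancel e
  · rintro ⟨⟨hg, h1⟩, h2⟩
    refine ⟨⟨hg, ?_⟩, h1⟩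
    calc g * (a * b) = (g * a) * b := by group
      _ = (a * g) * b := by rw [h1]
      _ = a * (g * b) := by group
      _ = a * (b * g) := by rw [h2]
      _ = a * b * g := by group

theorem bw_cen_b {Γ : Type*} [Group Γ] (H : Subgroup Γ) (a b : Γ) :
    cen (cen H (a * b)) b = cen (cen H a) b := by
  ext g
  constructor
  · rintro ⟨⟨hg, h1⟩, h2⟩
    refine ⟨⟨hg, ?_⟩, h2⟩
    have e : (g * a) * b = (a * g) * b := by
      calc (g * a) * b = g * (a * b) := by group
        _ = a * b * g := h1
        _ = a * (b * g) := by group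
        _ = a * (g * b) := by rw [h2]
        _ = (a * g) * b := by group
    exact mul_right_cancel e
  · rintro ⟨⟨hg, h1⟩, h2⟩
    refine ⟨⟨hg, ?_⟩, h2⟩
    calc g * (a * b) = (g * a) * b := by group
      _ = (a * g) * b := by rw [h1]
      _ = a * (g * b) := by group
      _ = a * (b * g) := by rw [h2]
      _ = a * b * g := by group

theorem bw {Γ : Type*} [Group Γ] [Finite Γ] (H : Subgroup Γ) (hodd : Odd (Nat.card H))
    (a b : Γ) (ha : a * a = 1) (hb : b * b = 1) (hab : a * b = b * a)
    (haN : ∀ h ∈ H, a * h * a⁻¹ ∈ H) (hbN : ∀ h ∈ H, b * h * b⁻¹ ∈ H) :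
    Nat.card H * Nat.card (cen (cen H a) b) ^ 2 =
      Nat.card (cen H a) * Nat.card (cen H b) * Nat.card (cen H (a * b)) := by
  have hcab : Commute a b := hab
  have hac : Commute a (a * b) := (Commute.refl a).mul_right hcab
  have hbc : Commute b (a * b) := hcab.symm.mul_right (Commute.refl b)
  have hc := bws_sq a b ha hb hab
  have hcN := bws_norm H a b haN hbN
  have hoddc : Odd (Nat.card (cen H (a * b))) :=
    Odd.of_dvd_nat hodd (Subgroup.card_dvd_of_le (cen_le H (a * b)))
  have hJa := card_jset H hodd a ha haN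
  have hJb := card_jset H hodd b hb hbN
  have hJc := card_jset H hodd (a * b) hc hcN
  have hJa' := card_jset (cen H (a * b)) hoddc a ha (bw_cen_norm H a _ hac haN)
  have hJb' := card_jset (cen H (a * b)) hoddc b hb (bw_cen_norm H b _ hbc hbN)
  rw [bw_cen_a] at hJa'
  rw [bw_cen_b] at hJb'
  have hS := card_prod_jset H hodd a b ha hb hab haN hbN
  have hF := card_fib_c H hodd a b ha hb hab haN hbN
  have hNpos : 0 < Nat.card H := Nat.card_pos
  have hCpos : 0 < Nat.card (cen H (a * b)) := Nat.card_pos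
  generalize Nat.card H = N at *
  generalize Nat.card (cen H a) = A at *
  generalize Nat.card (cen H b) = B at *
  generalize Nat.card (cen H (a * b)) = C at *
  generalize Nat.card (cen (cen H a) b) = D at *
  generalize Nat.card (jset H a) = Ja at *
  generalize Nat.card (jset H b) = Jb at *
  generalize Nat.card (jset H (a * b)) = Jc at *
  generalize Nat.card (jset (cen H (a * b)) a) = Ja' at *
  generalize Nat.card (jset (cen H (a * b)) b) = Jb' at *
  generalize Nat.card (fib H a b (a * b)) = F at *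
  have key : (N * C) * (N * D ^ 2) = (N * C) * (A * B * C) := by
    calc (N * C) * (N * D ^ 2) = ((Ja * A) * C) * ((Jb * B) * D ^ 2) := by rw [hJa, hJb]
      _ = (Ja * Jb) * (A * B * C * D ^ 2) := by ring
      _ = (Jc * (Ja' * Jb')) * (A * B * C * D ^ 2) := by rw [hS, hF]
      _ = (Jc * C) * (Ja' * D) * (Jb' * D) * (A * B) := by ring
      _ = N * C * C * (A * B) := by rw [hJc, hJa', hJb']
      _ = (N * C) * (A * B * C) := by ring
  exact Nat.eq_of_mul_eq_mul_left (Nat.mul_pos hNpos hCpos) key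

end Cfsg.Agent.Lib.Helper63.H581
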