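import Mathlib
import Cfsg.Agent.Lib.Helper63.H581.Defs

set_option autoImplicit false

namespace Cfsg.Agent.Lib.Helper63.H581

open Equiv Equiv.Perm MulAction

theorem card_cen_conj {Γ : Type*} [Group Γ] (K : Subgroup Γ) (g t : Γ) (hg : g ∈ K) :
    Nat.card (cen K (g * t * g⁻¹)) = Nat.card (cen K t) := by
  symm
  refine Nat.card_congr ⟨fun x => ⟨g * x.1 * g⁻¹, ?_⟩, fun y => ⟨g⁻¹ * y.1 * g, ?_⟩, ?_, ?_⟩
  · obtain ⟨hx, hx'⟩ := x.2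
    refine ⟨K.mul_mem (K.mul_mem hg hx) (K.inv_mem hg), ?_⟩
    calc g * x.1 * g⁻¹ * (g * t * g⁻¹) = g * (x.1 * t) * g⁻¹ := by group
      _ = g * (t * x.1) * g⁻¹ := by rw [hx']
      _ = g * t * g⁻¹ * (g * x.1 * g⁻¹) := by group
  · obtain ⟨hy, hy'⟩ := y.2
    refine ⟨K.mul_mem (K.mul_mem (K.inv_mem hg) hy) hg, ?_⟩
    calc g⁻¹ * y.1 * g * t = g⁻¹ * (y.1 * (g * t * g⁻¹)) * g := by group
      _ = g⁻¹ * ((g * t * g⁻¹) * y.1) * g := by rw [hy']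
      _ = t * (g⁻¹ * y.1 * g) := by group
  · intro x
    apply Subtype.ext
    show g⁻¹ * (g * x.1 * g⁻¹) * g = x.1
    group
  · intro y
    apply Subtype.ext
    show g * (g⁻¹ * y.1 * g) * g⁻¹ = y.1
    group

end Cfsg.Agent.Lib.Helper63.H581
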