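import Mathlib
import Cfsg.Agent.Lib.Helper63.H581.Defs

set_option autoImplicit false

namespace Cfsg.Agent.Lib.Helper63.H581

open Equiv Equiv.Perm MulAction

theorem fix_le_three {α : Type*} [Fintype α] [DecidableEq α] (G : Subgroup (Perm α))
    (hodd : ∀ y : Fin 4 ↪ α, Odd (Nat.card (fx G y))) (t : Perm α) (ht : t ∈ G)
    (ht2 : t * t = 1) (ht1 : t ≠ 1) : Fintype.card α ≤ t.support.card + 3 := by
  by_contra hcon
  push Not at hcon
  have hc : (t.supportᶜ).card = Fintype.card α - t.support.card := Finset.card_compl _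
  have h4 : Fintype.card (Fin 4) ≤ Fintype.card ↥(t.supportᶜ) := by
    rw [Fintype.card_coe, hc, Fintype.card_fin]
    omega
  obtain ⟨e⟩ := Function.Embedding.nonempty_of_card_le h4
  let y : Fin 4 ↪ α := e.trans (Function.Embedding.subtype _)
  have hy : ∀ j, t (y j) = y j := by
    intro j
    have h1 : (e j).1 ∈ t.supportᶜ := (e j).2
    rw [Finset.mem_compl, Perm.mem_support, not_not] at h1
    exact h1
  have htf : t ∈ fx G y := ⟨ht, hy⟩
  have ho : orderOf t = 2 := orderOf_eq_prime (by rw [pow_two, ht2]) ht1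
  have hd : orderOf t ∣ Nat.card (fx G y) := by
    have := orderOf_dvd_natCard (⟨t, htf⟩ : fx G y)
    rwa [Subgroup.orderOf_mk] at this
  rw [ho] at hd
  have := hodd y
  rw [Nat.odd_iff] at this
  omega

end Cfsg.Agent.Lib.Helper63.H581
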