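import Mathlib
import Cfsg.Agent.Lib.Helper63.H581.Defs

set_option autoImplicit false

namespace Cfsg.Agent.Lib.Helper63.H581

open Equiv Equiv.Perm MulAction

theorem orbit_count {α : Type*} [Fintype α] [DecidableEq α] (K : Subgroup (Perm α))
    (E : Set (Fin 4 ↪ α)) (x : Fin 4 ↪ α)
    (hpres : ∀ g ∈ K, ∀ y : Fin 4 ↪ α, (∀ j, g (x j) = y j) → y ∈ E)
    (htr : ∀ y ∈ E, ∃ g ∈ K, ∀ j, g (x j) = y j) :
    Nat.card K = Nat.card E * Nat.card (fx K x) := by
  classical
  have h1 := MulAction.card_orbit_mul_card_stabilizer_eq_card_group K x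
  simp only [← Nat.card_eq_fintype_card] at h1
  have hsm : ∀ (g : K) (j : Fin 4), (g • x) j = (g : Perm α) (x j) := fun g j => rfl
  have h2 : orbit K x = E := by
    ext y
    constructor
    · rintro ⟨g, rfl⟩
      exact hpres g g.2 _ (fun j => (hsm g j).symm)
    · intro hy
      obtain ⟨g, hg, hgy⟩ := htr y hy
      refine ⟨⟨g, hg⟩, ?_⟩
      ext j
      exact hgy j
  have h3 : Nat.card (stabilizer K x) = Nat.card (fx K x) := by
    apply Nat.card_congr
    refine ⟨fun g => ⟨(g : K), (g : K).2, fun j => ?_⟩, fun g => ⟨⟨g, g.2.1⟩, ?_⟩, ?_, ?_⟩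
    · have := congrArg (fun f : Fin 4 ↪ α => f j) (mem_stabilizer_iff.1 g.2)
      exact this
    · rw [mem_stabilizer_iff]
      ext j
      exact g.2.2 j
    · intro g; rfl
    · intro g; rfl
  have h1' : Nat.card (orbit K x) * Nat.card (stabilizer K x) = Nat.card K := h1
  rw [← h1', h2, h3]

end Cfsg.Agent.Lib.Helper63.H581
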