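import Mathlib
import Cfsg.Agent.Lib.Helper63.H581.Defs
import Cfsg.Agent.Lib.Helper63.H581.DIH

set_option autoImplicit false

namespace Cfsg.Agent.Lib.Helper63.H581

open Equiv Equiv.Perm MulAction

theorem tr_odd {Γ : Type*} [Group Γ] (H : Subgroup Γ) (hodd : Odd (Nat.card H)) (w : Γ)
    (hw : w ∈ H) : Odd (orderOf w) := by
  have h1 : orderOf (⟨w, hw⟩ : H) ∣ Nat.card H := orderOf_dvd_natCard _
  rw [Subgroup.orderOf_mk] at h1
  exact Odd.of_dvd_nat hodd h1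

theorem tr_step {α : Type*} [Fintype α] [DecidableEq α] (K : Subgroup (Perm α)) (t : Perm α)
    (ht : t ∈ K) (ht2 : t * t = 1) (π : Perm (Fin 4)) (y z : Fin 4 ↪ α) (hy : y ∈ pat t π)
    (hz : z ∈ pat t π) (g0 : Perm α) (hg0 : g0 ∈ K) (hg0y : ∀ j, g0 (y j) = z j)
    (hodd : Odd (Nat.card (fx K z))) : ∃ g ∈ cen K t, ∀ j, g (y j) = z j := by
  have ht'K : g0 * t * g0⁻¹ ∈ K := K.mul_mem (K.mul_mem hg0 ht) (K.inv_mem hg0)
  have ht'2 : (g0 * t * g0⁻¹) * (g0 * t * g0⁻¹) = 1 := by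
    calc (g0 * t * g0⁻¹) * (g0 * t * g0⁻¹) = g0 * (t * t) * g0⁻¹ := by group
      _ = 1 := by rw [ht2]; group
  have hinv : ∀ j, g0⁻¹ (z j) = y j := by
    intro j
    rw [Equiv.Perm.inv_eq_iff_eq, hg0y]
  have ht'z : ∀ j, (g0 * t * g0⁻¹) (z j) = t (z j) := by
    intro j
    rw [Perm.mul_apply, Perm.mul_apply, hinv, hy j, hg0y, hz j]
  have hw : t * (g0 * t * g0⁻¹) ∈ fx K z := by
    refine ⟨K.mul_mem ht ht'K, fun j => ?_⟩
    rw [Perm.mul_apply, ht'z, ← Perm.mul_apply, ht2]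
    rfl
  obtain ⟨h, hh, hconj⟩ := dih_conj t (g0 * t * g0⁻¹) ht2 ht'2 (tr_odd _ hodd _ hw)
  have hhfx : h ∈ fx K z := by
    have : Subgroup.zpowers (t * (g0 * t * g0⁻¹)) ≤ fx K z := by
      rw [Subgroup.zpowers_le]; exact hw
    exact this hh
  refine ⟨h * g0, ⟨K.mul_mem hhfx.1 hg0, ?_⟩, fun j => ?_⟩
  · have h1 : h * g0 * t * (h * g0)⁻¹ = t := by
      calc h * g0 * t * (h * g0)⁻¹ = h * (g0 * t * g0⁻¹) * h⁻¹ := by group
        _ = t := hconj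
    calc h * g0 * t = h * g0 * t * (h * g0)⁻¹ * (h * g0) := by group
      _ = t * (h * g0) := by rw [h1]
  · rw [Perm.mul_apply, hg0y, hhfx.2]

end Cfsg.Agent.Lib.Helper63.H581
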