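import Mathlib
import Cfsg.Agent.Lib.Helper63.H581.Defs
import Cfsg.Agent.Lib.Helper63.H581.TR
import Cfsg.Agent.Lib.Helper63.H581.OC

set_option autoImplicit false

namespace Cfsg.Agent.Lib.Helper63.H581

open Equiv Equiv.Perm MulAction

theorem lv1_trans {α : Type*} (G : Subgroup (Perm α)) (hG : IsMultiplyPretransitive G α 4)
    (x y : Fin 4 ↪ α) : ∃ g ∈ G, ∀ j, g (x j) = y j := by
  obtain ⟨g, hg⟩ := hG.exists_smul_eq x y
  refine ⟨g.1, g.2, fun j => ?_⟩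
  rw [← hg]
  rfl

theorem lv1_pres {α : Type*} {t g : Perm α} (hgt : g * t = t * g) {π : Perm (Fin 4)}
    {x y : Fin 4 ↪ α} (hx : x ∈ pat t π) (hy : ∀ j, g (x j) = y j) : y ∈ pat t π := by
  rw [mem_pat]
  intro j
  rw [← hy, ← hy, ← Perm.mul_apply, ← hgt, Perm.mul_apply, mem_pat.1 hx]

theorem lv1_fx {α : Type*} (G : Subgroup (Perm α)) (t : Perm α) (x : Fin 4 ↪ α) :
    fx (cen G t) x = cen (fx G x) t := by
  ext g
  constructor
  · rintro ⟨⟨h1, h2⟩, h3⟩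
    exact ⟨⟨h1, h3⟩, h2⟩
  · rintro ⟨⟨h1, h3⟩, h2⟩
    exact ⟨⟨h1, h2⟩, h3⟩

theorem level1 {α : Type*} [Fintype α] [DecidableEq α] (G : Subgroup (Perm α))
    (hG : IsMultiplyPretransitive G α 4) (hodd : ∀ y : Fin 4 ↪ α, Odd (Nat.card (fx G y)))
    (t : Perm α) (ht : t ∈ G) (ht2 : t * t = 1) (π : Perm (Fin 4)) (x : Fin 4 ↪ α)
    (hx : x ∈ pat t π) :
    Nat.card (cen G t) = Nat.card (pat t π) * Nat.card (cen (fx G x) t) := by
  rw [← lv1_fx]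
  apply orbit_count
  · intro g hg y hy
    exact lv1_pres hg.2 hx hy
  · intro y hy
    obtain ⟨g0, hg0, hg0y⟩ := lv1_trans G hG x y
    exact tr_step G t ht ht2 π x y hx hy g0 hg0 hg0y (hodd y)

end Cfsg.Agent.Lib.Helper63.H581
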