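import Mathlib
import Cfsg.Agent.Lib.Helper63.H581.Defs
import Cfsg.Agent.Lib.Helper63.H581.I1
import Cfsg.Agent.Lib.Helper63.H581.LV1

set_option autoImplicit false

namespace Cfsg.Agent.Lib.Helper63.H581

open Equiv Equiv.Perm MulAction

/-- an involution moving at least five points has a tuple of pattern `(0 1)(2 3)` -/
theorem conj_exists_pat {α : Type*} [Fintype α] [DecidableEq α] (s : Perm α) (hs2 : s * s = 1)
    (h5 : 5 ≤ s.support.card) : ∃ x : Fin 4 ↪ α, x ∈ pat s (swap 0 1 * swap 2 3) := by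
  have hss : ∀ z, s (s z) = z := fun z => by rw [← Perm.mul_apply, hs2]; rfl
  obtain ⟨r, hr⟩ : s.support.Nonempty := Finset.card_pos.1 (by omega)
  have hr' : s r ≠ r := Perm.mem_support.1 hr
  have hc : 0 < (s.support \ {r, s r}).card := by
    have h1 := Finset.le_card_sdiff ({r, s r} : Finset α) s.support
    have h2 : ({r, s r} : Finset α).card ≤ 2 := Finset.card_le_two
    omega
  obtain ⟨r', hr2⟩ := Finset.card_pos.1 hc
  rw [Finset.mem_sdiff, Finset.mem_insert, Finset.mem_singleton, not_or] at hr2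
  obtain ⟨hr2s, hne1, hne2⟩ := hr2
  have hr2' : s r' ≠ r' := Perm.mem_support.1 hr2s
  refine ⟨mk4 r (s r) r' (s r') ⟨hr'.symm, fun h => hne1 h.symm, ?_, fun h => hne2 h.symm, ?_,
    hr2'.symm⟩, ?_⟩
  · intro h
    apply hne2
    rw [h, hss]
  · intro h
    exact hne1 (s.injective h).symm
  · rw [mem_pat2]
    simp only [mk4_zero, mk4_one, mk4_two, mk4_three]
    exact ⟨trivial, hss r, trivial, hss r'⟩

theorem inv_conj {α : Type*} [Fintype α] [DecidableEq α] (G : Subgroup (Perm α))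
    (hG : IsMultiplyPretransitive G α 4) (hodd : ∀ y : Fin 4 ↪ α, Odd (Nat.card (fx G y)))
    (hn : 8 ≤ Fintype.card α) (s t : Perm α) (hs : s ∈ G) (ht : t ∈ G) (hs2 : s * s = 1)
    (ht2 : t * t = 1) (hs1 : s ≠ 1) (ht1 : t ≠ 1) : ∃ g ∈ G, g * t * g⁻¹ = s := by
  have h1 := fix_le_three G hodd s hs hs2 hs1
  have h2 := fix_le_three G hodd t ht ht2 ht1
  obtain ⟨x, hx⟩ := conj_exists_pat s hs2 (by omega)
  obtain ⟨y, hy⟩ := conj_exists_pat t ht2 (by omega)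
  have hx' := mem_pat.1 hx
  have hy' := mem_pat.1 hy
  obtain ⟨g0, hg0, hg0y⟩ := lv1_trans G hG y x
  obtain ⟨t', ht'⟩ : ∃ t', t' = g0 * t * g0⁻¹ := ⟨_, rfl⟩
  have ht'K : t' ∈ G := ht' ▸ G.mul_mem (G.mul_mem hg0 ht) (G.inv_mem hg0)
  have ht'2 : t' * t' = 1 := by
    rw [ht']
    calc g0 * t * g0⁻¹ * (g0 * t * g0⁻¹) = g0 * (t * t) * g0⁻¹ := by group
      _ = 1 := by rw [ht2]; group
  have h3 : ∀ j, t' (x j) = x ((swap 0 1 * swap 2 3 : Perm (Fin 4)) j) := by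
    intro j
    have h4 : g0⁻¹ (x j) = y j := by rw [Perm.inv_eq_iff_eq, hg0y]
    rw [ht', Perm.mul_apply, Perm.mul_apply, h4, hy', hg0y]
  have hw : s * t' ∈ fx G x := ⟨G.mul_mem hs ht'K, fun j => by
    rw [Perm.mul_apply, h3, ← hx' j, ← Perm.mul_apply, hs2]; rfl⟩
  obtain ⟨h, hh, hc⟩ := dih_conj s t' hs2 ht'2 (tr_odd _ (hodd x) _ hw)
  have hhf : h ∈ fx G x := (Subgroup.zpowers_le.2 hw) hh
  refine ⟨h * g0, G.mul_mem hhf.1 hg0, ?_⟩
  rw [ht'] at hc
  rw [← hc]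
  group

end Cfsg.Agent.Lib.Helper63.H581
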