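import Mathlib
import Cfsg.Agent.Lib.Helper63.H581.Defs

set_option autoImplicit false

namespace Cfsg.Agent.Lib.Helper63.H581

open Equiv Equiv.Perm

theorem e1_sq {α : Type*} (a : Perm α) (ha2 : a * a = 1) (x : α) : a (a x) = x := by
  rw [← Perm.mul_apply, ha2, Perm.one_apply]

/-- the index set -/
def e1T {α : Type*} [Fintype α] [DecidableEq α] (t : Perm α) : Finset ((Σ _ : α, α) × α) :=
  ((t.supportᶜ).sigma (fun p => (t.supportᶜ).erase p)) ×ˢ t.support

theorem e1_mem {α : Type*} [Fintype α] [DecidableEq α] (t : Perm α) (z : (Σ _ : α, α) × α) :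
    z ∈ e1T t ↔ t z.1.1 = z.1.1 ∧ z.1.2 ≠ z.1.1 ∧ t z.1.2 = z.1.2 ∧ t z.2 ≠ z.2 := by
  simp [e1T, Finset.mem_sigma, and_assoc]

theorem e1_card {α : Type*} [Fintype α] [DecidableEq α] (t : Perm α) :
    (e1T t).card = (Fintype.card α - t.support.card) * (Fintype.card α - t.support.card - 1) *
        t.support.card := by
  rw [e1T, Finset.card_product, Finset.card_sigma]
  have h : ∀ p ∈ t.supportᶜ, ((t.supportᶜ).erase p).card = Fintype.card α - t.support.card - 1 := by
    intro p hp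
    rw [Finset.card_erase_of_mem hp, Finset.card_compl]
  rw [Finset.sum_congr rfl h, Finset.sum_const, smul_eq_mul, Finset.card_compl]

theorem e1_ne {α : Type*} (t : Perm α) (ht2 : t * t = 1) (p q r : α) (h1 : t p = p)
    (h2 : q ≠ p) (h3 : t q = q) (h4 : t r ≠ r) :
    p ≠ q ∧ p ≠ r ∧ p ≠ t r ∧ q ≠ r ∧ q ≠ t r ∧ r ≠ t r := by
  have aux : ∀ x, t x = x → x ≠ t r := by
    intro x hx h
    apply h4
    have : t x = t (t r) := congrArg t h
    rw [hx, e1_sq t ht2] at this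
    rw [← this, hx]
  refine ⟨h2.symm, ?_, aux p h1, ?_, aux q h3, h4.symm⟩
  · rintro rfl; exact h4 h1
  · rintro rfl; exact h4 h3

theorem card_pat1 {α : Type*} [Fintype α] [DecidableEq α] (t : Perm α) (ht2 : t * t = 1) :
    Nat.card (pat t (swap 2 3)) =
      (Fintype.card α - t.support.card) * (Fintype.card α - t.support.card - 1) *
        t.support.card := by
  have htt := e1_sq t ht2
  rw [← e1_card, ← Fintype.card_coe, ← Nat.card_eq_fintype_card]
  symm
  refine Nat.card_congr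
    { toFun := fun z => ⟨mk4 z.1.1.1 z.1.1.2 z.1.2 (t z.1.2)
        (e1_ne t ht2 _ _ _ ((e1_mem t z.1).1 z.2).1 ((e1_mem t z.1).1 z.2).2.1
          ((e1_mem t z.1).1 z.2).2.2.1 ((e1_mem t z.1).1 z.2).2.2.2), ?_⟩
      invFun := fun x => ⟨(⟨x.1 0, x.1 1⟩, x.1 2), ?_⟩
      left_inv := ?_
      right_inv := ?_ }
  · rw [mem_pat1]
    simp only [mk4_zero, mk4_one, mk4_two, mk4_three]
    exact ⟨((e1_mem t z.1).1 z.2).1, ((e1_mem t z.1).1 z.2).2.2.1, trivial, htt _⟩
  · have h1 := x.2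
    rw [mem_pat1] at h1
    rw [e1_mem]
    show t (x.1 0) = x.1 0 ∧ x.1 1 ≠ x.1 0 ∧ t (x.1 1) = x.1 1 ∧ t (x.1 2) ≠ x.1 2
    rw [h1.2.2.1]
    refine ⟨h1.1, ?_, h1.2.1, ?_⟩
    · intro h; have := x.1.injective h; revert this; decide
    · intro h; have := x.1.injective h; revert this; decide
  · intro z
    rfl
  · rintro ⟨x, h1⟩
    rw [mem_pat1] at h1
    apply Subtype.ext
    apply emb4_ext
    · rfl
    · rfl
    · rfl
    · exact h1.2.2.1

end Cfsg.Agent.Lib.Helper63.H581
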