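import Mathlib
import Cfsg.Agent.Lib.Helper63.H581.Defs

set_option autoImplicit false

namespace Cfsg.Agent.Lib.Helper63.H581

open Equiv Equiv.Perm

theorem e2_sq {α : Type*} (a : Perm α) (ha2 : a * a = 1) (x : α) : a (a x) = x := by
  rw [← Perm.mul_apply, ha2, Perm.one_apply]

/-- the index set -/
def e2T {α : Type*} [Fintype α] [DecidableEq α] (t : Perm α) : Finset (Σ _ : α, α) :=
  t.support.sigma (fun r => t.support \ {r, t r})

theorem e2_mem {α : Type*} [Fintype α] [DecidableEq α] (t : Perm α) (z : Σ _ : α, α) :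
    z ∈ e2T t ↔ t z.1 ≠ z.1 ∧ t z.2 ≠ z.2 ∧ z.2 ≠ z.1 ∧ z.2 ≠ t z.1 := by
  simp [e2T, Finset.mem_sigma]

theorem e2_card {α : Type*} [Fintype α] [DecidableEq α] (t : Perm α) :
    (e2T t).card = t.support.card * (t.support.card - 2) := by
  rw [e2T, Finset.card_sigma]
  have h : ∀ r ∈ t.support, (t.support \ {r, t r}).card = t.support.card - 2 := by
    intro r hr
    have hr' : t r ≠ r := Perm.mem_support.1 hr
    have hsub : ({r, t r} : Finset α) ⊆ t.support := by
      intro x hx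
      rw [Finset.mem_insert, Finset.mem_singleton] at hx
      rcases hx with rfl | rfl
      · exact hr
      · exact Perm.apply_mem_support.2 hr
    rw [Finset.card_sdiff_of_subset hsub, Finset.card_pair hr'.symm]
  rw [Finset.sum_congr rfl h, Finset.sum_const, smul_eq_mul]

theorem e2_ne {α : Type*} (t : Perm α) (ht2 : t * t = 1) (r r' : α) (h1 : t r ≠ r)
    (h2 : t r' ≠ r') (h3 : r' ≠ r) (h4 : r' ≠ t r) :
    r ≠ t r ∧ r ≠ r' ∧ r ≠ t r' ∧ t r ≠ r' ∧ t r ≠ t r' ∧ r' ≠ t r' := by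
  refine ⟨h1.symm, h3.symm, ?_, h4.symm, ?_, h2.symm⟩
  · intro h
    apply h4
    rw [h, e2_sq t ht2]
  · intro h
    exact h3 (t.injective h).symm

theorem card_pat2 {α : Type*} [Fintype α] [DecidableEq α] (t : Perm α) (ht2 : t * t = 1) :
    Nat.card (pat t (swap 0 1 * swap 2 3)) = t.support.card * (t.support.card - 2) := by
  have htt := e2_sq t ht2
  rw [← e2_card, ← Fintype.card_coe, ← Nat.card_eq_fintype_card]
  symm
  refine Nat.card_congr
    { toFun := fun z => ⟨mk4 z.1.1 (t z.1.1) z.1.2 (t z.1.2)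
        (e2_ne t ht2 _ _ ((e2_mem t z.1).1 z.2).1 ((e2_mem t z.1).1 z.2).2.1
          ((e2_mem t z.1).1 z.2).2.2.1 ((e2_mem t z.1).1 z.2).2.2.2), ?_⟩
      invFun := fun x => ⟨⟨x.1 0, x.1 2⟩, ?_⟩
      left_inv := ?_
      right_inv := ?_ }
  · rw [mem_pat2]
    simp [htt]
  · have h1 := x.2
    rw [mem_pat2] at h1
    rw [e2_mem]
    show t (x.1 0) ≠ x.1 0 ∧ t (x.1 2) ≠ x.1 2 ∧ x.1 2 ≠ x.1 0 ∧ x.1 2 ≠ t (x.1 0)
    rw [h1.1, h1.2.2.1]
    refine ⟨?_, ?_, ?_, ?_⟩
    · intro h; have := x.1.injective h; revert this; decide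
    · intro h; have := x.1.injective h; revert this; decide
    · intro h; have := x.1.injective h; revert this; decide
    · intro h; have := x.1.injective h; revert this; decide
  · intro z
    rfl
  · rintro ⟨x, h1⟩
    rw [mem_pat2] at h1
    apply Subtype.ext
    apply emb4_ext
    · rfl
    · exact h1.1
    · rfl
    · exact h1.2.2.1

end Cfsg.Agent.Lib.Helper63.H581
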