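import Mathlib
import Cfsg.Agent.Lib.Helper63.H581.Defs

set_option autoImplicit false

namespace Cfsg.Agent.Lib.Helper63.H581

open Equiv Equiv.Perm

theorem e3_sq {α : Type*} (a : Perm α) (ha2 : a * a = 1) (x : α) : a (a x) = x := by
  rw [← Perm.mul_apply, ha2, Perm.one_apply]

theorem e3_comm {α : Type*} (a b : Perm α) (hab : a * b = b * a) (x : α) :
    a (b x) = b (a x) := by
  rw [← Perm.mul_apply, hab, Perm.mul_apply]

theorem e3_ne {α : Type*} [Fintype α] [DecidableEq α] (a b : Perm α) (ha2 : a * a = 1)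
    (hab : a * b = b * a) (p q : α) (hp : p ∈ fAB a b) (hq : q ∈ fAB b a) :
    p ≠ b p ∧ p ≠ q ∧ p ≠ a q ∧ b p ≠ q ∧ b p ≠ a q ∧ q ≠ a q := by
  obtain ⟨hp1, hp2⟩ := mem_fAB.1 hp
  obtain ⟨hq1, hq2⟩ := mem_fAB.1 hq
  have haa := e3_sq a ha2
  have hc := e3_comm a b hab
  have hbp : a (b p) = b p := by rw [hc, hp1]
  refine ⟨hp2.symm, ?_, ?_, ?_, ?_, hq2.symm⟩
  · rintro rfl; exact hq2 hp1
  · intro h
    apply hq2
    have : a p = a (a q) := congrArg a h
    rw [hp1, haa] at this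
    rw [← this, hp1]
  · intro h; rw [h] at hbp; exact hq2 hbp
  · intro h
    apply hq2
    have : a (b p) = a (a q) := congrArg a h
    rw [hbp, haa] at this
    rw [← this, hbp]

theorem card_pat_ab0 {α : Type*} [Fintype α] [DecidableEq α] (a b : Perm α) (ha2 : a * a = 1)
    (hb2 : b * b = 1) (hab : a * b = b * a) :
    Nat.card (↥(pat a (swap 2 3) ∩ pat b (swap 0 1))) = (fAB a b).card * (fAB b a).card := by
  have haa := e3_sq a ha2
  have hbb := e3_sq b hb2
  have hc := e3_comm a b hab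
  rw [← Fintype.card_coe, ← Fintype.card_coe, ← Nat.card_eq_fintype_card,
    ← Nat.card_eq_fintype_card, ← Nat.card_prod]
  symm
  refine Nat.card_congr
    { toFun := fun z => ⟨mk4 z.1.1 (b z.1.1) z.2.1 (a z.2.1)
        (e3_ne a b ha2 hab z.1.1 z.2.1 z.1.2 z.2.2), ?_, ?_⟩
      invFun := fun x => (⟨x.1 0, ?_⟩, ⟨x.1 2, ?_⟩)
      left_inv := ?_
      right_inv := ?_ }
  · rw [mem_pat1]
    simp only [mk4_zero, mk4_one, mk4_two, mk4_three]
    have h1 := (mem_fAB.1 z.1.2).1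
    exact ⟨h1, by rw [hc, h1], trivial, haa _⟩
  · rw [mem_pat0]
    simp only [mk4_zero, mk4_one, mk4_two, mk4_three]
    have h1 := (mem_fAB.1 z.2.2).1
    exact ⟨trivial, hbb _, h1, by rw [← hc, h1]⟩
  · obtain ⟨h1, h2⟩ := x.2
    rw [mem_pat1] at h1
    rw [mem_pat0] at h2
    rw [mem_fAB, h2.1]
    refine ⟨h1.1, ?_⟩
    intro h; have := x.1.injective h; revert this; decide
  · obtain ⟨h1, h2⟩ := x.2
    rw [mem_pat1] at h1
    rw [mem_pat0] at h2
    rw [mem_fAB, h1.2.2.1]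
    refine ⟨h2.2.2.1, ?_⟩
    intro h; have := x.1.injective h; revert this; decide
  · intro z
    rfl
  · rintro ⟨x, h1, h2⟩
    rw [mem_pat1] at h1
    rw [mem_pat0] at h2
    apply Subtype.ext
    apply emb4_ext
    · rfl
    · exact h2.1
    · rfl
    · exact h1.2.2.1

end Cfsg.Agent.Lib.Helper63.H581
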