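import Mathlib
import Cfsg.Agent.Lib.Helper63.H581.Defs

set_option autoImplicit false

namespace Cfsg.Agent.Lib.Helper63.H581

open Equiv Equiv.Perm

theorem frd_sq {α : Type*} (a : Perm α) (ha2 : a * a = 1) (x : α) : a (a x) = x := by
  rw [← Perm.mul_apply, ha2, Perm.one_apply]

theorem frd_comm {α : Type*} (a b : Perm α) (hab : a * b = b * a) (x : α) :
    a (b x) = b (a x) := by
  rw [← Perm.mul_apply, hab, Perm.mul_apply]

theorem fR_ne {α : Type*} [Fintype α] [DecidableEq α] (a b : Perm α) (ha2 : a * a = 1)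
    (hb2 : b * b = 1) (hab : a * b = b * a) (r : α) (hr : r ∈ fR a b) :
    r ≠ a r ∧ r ≠ b r ∧ r ≠ a (b r) ∧ a r ≠ b r ∧ a r ≠ a (b r) ∧ b r ≠ a (b r) := by
  obtain ⟨h1, h2, h3⟩ := mem_fR.1 hr
  refine ⟨h1.symm, h2.symm, h3.symm, ?_, ?_, ?_⟩
  · intro h
    apply h3
    rw [← h, frd_sq a ha2]
  · intro h
    exact h2 (a.injective h).symm
  · intro h
    rw [frd_comm a b hab] at h
    exact h1 (b.injective h).symm

end Cfsg.Agent.Lib.Helper63.H581
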