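import Mathlib
import Cfsg.Agent.Lib.Helper63.H581.Defs
import Cfsg.Agent.Lib.Helper63.H581.FRD

set_option autoImplicit false

namespace Cfsg.Agent.Lib.Helper63.H581

open Equiv Equiv.Perm

theorem card_pat_ab1 {α : Type*} [Fintype α] [DecidableEq α] (a b : Perm α) (ha2 : a * a = 1)
    (hb2 : b * b = 1) (hab : a * b = b * a) :
    Nat.card (↥(pat a (swap 0 1 * swap 2 3) ∩ pat b (swap 0 2 * swap 1 3))) =
      (fR a b).card := by
  have haa := frd_sq a ha2
  have hbb := frd_sq b hb2
  have hc := frd_comm a b hab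
  rw [← Fintype.card_coe, ← Nat.card_eq_fintype_card]
  symm
  refine Nat.card_congr
    { toFun := fun r => ⟨mk4 r.1 (a r.1) (b r.1) (a (b r.1)) (fR_ne a b ha2 hb2 hab r.1 r.2), ?_, ?_⟩
      invFun := fun x => ⟨x.1 0, ?_⟩
      left_inv := ?_
      right_inv := ?_ }
  · rw [mem_pat2]
    simp [haa]
  · rw [mem_pat3]
    simp only [mk4_zero, mk4_one, mk4_two, mk4_three]
    refine ⟨trivial, (hc _).symm, hbb _, ?_⟩
    rw [← hc, hbb]
  · obtain ⟨h1, h2⟩ := x.2
    rw [mem_pat2] at h1
    rw [mem_pat3] at h2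
    rw [mem_fR, h2.1, h1.1, h1.2.2.1]
    refine ⟨?_, ?_, ?_⟩
    · intro h; have := x.1.injective h; revert this; decide
    · intro h; have := x.1.injective h; revert this; decide
    · intro h; have := x.1.injective h; revert this; decide
  · intro r
    rfl
  · rintro ⟨x, h1, h2⟩
    rw [mem_pat2] at h1
    rw [mem_pat3] at h2
    apply Subtype.ext
    apply emb4_ext
    · rfl
    · exact h1.1
    · exact h2.1
    · show a (b (x 0)) = x 3
      rw [h2.1, h1.2.2.1]

end Cfsg.Agent.Lib.Helper63.H581
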