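import Mathlib
import Cfsg.Agent.Lib.Helper63.H581.Defs

set_option autoImplicit false

namespace Cfsg.Agent.Lib.Helper63.H581

open Equiv Equiv.Perm MulAction

theorem inv_of_pat {α : Type*} [Fintype α] [DecidableEq α] (K : Subgroup (Perm α)) (g : Perm α)
    (hg : g ∈ K) (π : Perm (Fin 4)) (hπ : π * π = 1) (x : Fin 4 ↪ α) (hgx : x ∈ pat g π)
    (hodd : Odd (Nat.card (fx K x))) : ∃ t ∈ K, t * t = 1 ∧ x ∈ pat t π := by
  have hgg : g * g ∈ fx K x := by
    refine ⟨K.mul_mem hg hg, fun j => ?_⟩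
    rw [Perm.mul_apply, hgx j, hgx (π j), ← Perm.mul_apply, hπ]
    rfl
  have hk : Odd (orderOf (g * g)) := by
    have h1 : orderOf (⟨g * g, hgg⟩ : fx K x) ∣ Nat.card (fx K x) := orderOf_dvd_natCard _
    rw [Subgroup.orderOf_mk] at h1
    exact Odd.of_dvd_nat hodd h1
  obtain ⟨j, hj⟩ := hk
  refine ⟨g ^ orderOf (g * g), K.pow_mem hg _, ?_, ?_⟩
  · rw [← (Commute.refl g).mul_pow]
    exact pow_orderOf_eq_one _
  · intro i
    have h1 : g ^ orderOf (g * g) = (g * g) ^ j * g := by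
      rw [hj, pow_succ, pow_mul, sq]
    rw [h1, Perm.mul_apply, hgx i]
    have h2 : (g * g) ^ j ∈ fx K x := (fx K x).pow_mem hgg j
    exact h2.2 _

end Cfsg.Agent.Lib.Helper63.H581
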