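import Mathlib
import Cfsg.Agent.Lib.Helper63.H581.Defs
import Cfsg.Agent.Lib.Helper63.H581.LV1

set_option autoImplicit false

namespace Cfsg.Agent.Lib.Helper63.H581

open Equiv Equiv.Perm MulAction

theorem lv2_odd {α : Type*} [Fintype α] [DecidableEq α] (G : Subgroup (Perm α)) (a : Perm α)
    (y : Fin 4 ↪ α) (h : Odd (Nat.card (fx G y))) : Odd (Nat.card (fx (cen G a) y)) := by
  have hle : fx (cen G a) y ≤ fx G y := fun g hg => ⟨hg.1.1, hg.2⟩
  exact h.of_dvd_nat (Subgroup.card_dvd_of_le hle)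

theorem level2 {α : Type*} [Fintype α] [DecidableEq α] (G : Subgroup (Perm α))
    (hG : IsMultiplyPretransitive G α 4) (hodd : ∀ y : Fin 4 ↪ α, Odd (Nat.card (fx G y)))
    (a b : Perm α) (ha : a ∈ G) (hb : b ∈ G) (ha2 : a * a = 1) (hb2 : b * b = 1)
    (hab : a * b = b * a) (π π' : Perm (Fin 4)) (x : Fin 4 ↪ α) (hx : x ∈ pat a π)
    (hx' : x ∈ pat b π') :
    Nat.card (cen (cen G a) b) =
      Nat.card (↥(pat a π ∩ pat b π')) * Nat.card (cen (cen (fx G x) a) b) := by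
  rw [← lv1_fx G a x, ← lv1_fx (cen G a) b x]
  apply orbit_count
  · intro g hg y hy
    exact ⟨lv1_pres hg.1.2 hx hy, lv1_pres hg.2 hx' hy⟩
  · rintro y ⟨hy, hy'⟩
    obtain ⟨g0, hg0, hg0y⟩ := lv1_trans G hG x y
    obtain ⟨g1, hg1, hg1y⟩ := tr_step G a ha ha2 π x y hx hy g0 hg0 hg0y (hodd y)
    exact tr_step (cen G a) b ⟨hb, hab.symm⟩ hb2 π' x y hx' hy' g1 hg1 hg1y
      (lv2_odd G a y (hodd y))

end Cfsg.Agent.Lib.Helper63.H581
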