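import Mathlib
import Cfsg.Agent.Lib.Helper63.H581.Defs
import Cfsg.Agent.Lib.Helper63.H581.INV
import Cfsg.Agent.Lib.Helper63.H581.LV2

set_option autoImplicit false

namespace Cfsg.Agent.Lib.Helper63.H581

open Equiv Equiv.Perm MulAction

theorem exists_ab {α : Type*} [Fintype α] [DecidableEq α] (G : Subgroup (Perm α))
    (hG : IsMultiplyPretransitive G α 4) (hodd : ∀ y : Fin 4 ↪ α, Odd (Nat.card (fx G y)))
    (x : Fin 4 ↪ α) : ∃ a ∈ G, ∃ b ∈ G, a * a = 1 ∧ b * b = 1 ∧ a * b = b * a ∧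
      x ∈ pat a (swap 2 3) ∧ x ∈ pat b (swap 0 1) := by
  obtain ⟨g, hg, hgx⟩ := lv1_trans G hG x ((Equiv.toEmbedding (swap 2 3 : Perm (Fin 4))).trans x)
  have hgp : x ∈ pat g (swap 2 3) := mem_pat.2 fun j => hgx j
  obtain ⟨a, ha, ha2, hax⟩ := inv_of_pat G g hg (swap 2 3) (swap_mul_self 2 3) x hgp (hodd x)
  obtain ⟨x', hx'⟩ : ∃ x' : Fin 4 ↪ α, x' = (Equiv.toEmbedding (swap 0 1 : Perm (Fin 4))).trans x :=
    ⟨_, rfl⟩
  have hx'j : ∀ j, x' j = x (swap 0 1 j) := fun j => by rw [hx']; rfl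
  have hcomm : ∀ j : Fin 4, (swap 2 3 : Perm (Fin 4)) (swap 0 1 j) = swap 0 1 (swap 2 3 j) := by
    decide
  have hax' : x' ∈ pat a (swap 2 3) := by
    rw [mem_pat]
    intro j
    rw [hx'j, hx'j, mem_pat.1 hax, hcomm]
  obtain ⟨g0, hg0, hg0x⟩ := lv1_trans G hG x x'
  obtain ⟨g1, hg1, hg1x⟩ := tr_step G a ha ha2 (swap 2 3) x x' hax hax' g0 hg0 hg0x (hodd x')
  have hg1p : x ∈ pat g1 (swap 0 1) := mem_pat.2 fun j => by rw [hg1x, hx'j]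
  obtain ⟨b, hb, hb2, hbx⟩ := inv_of_pat (cen G a) g1 hg1 (swap 0 1) (swap_mul_self 0 1) x hg1p
    (lv2_odd G a x (hodd x))
  exact ⟨a, ha, b, hb.1, ha2, hb2, hb.2.symm, hax, hbx⟩

end Cfsg.Agent.Lib.Helper63.H581
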