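import Mathlib

set_option autoImplicit false

namespace Cfsg.Agent.Lib.Helper63.H581

theorem final11 (h X : ℕ) (hodd : Odd h) (e : h = X * X * X)
    (hdvd : 7920 * h ∣ Nat.factorial 11) : h = 1 := by
  have h1 : Nat.factorial 11 = 7920 * 5040 := by decide
  rw [h1] at hdvd
  have h2 : h ∣ 5040 := Nat.dvd_of_mul_dvd_mul_left (by norm_num) hdvd
  have h3 : h ≤ 5040 := Nat.le_of_dvd (by norm_num) h2
  have hX : X ≤ 17 := by
    by_contra hcon
    push Not at hcon
    have : 18 * 18 * 18 ≤ X * X * X := by
      apply Nat.mul_le_mul (Nat.mul_le_mul hcon hcon) hcon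
    omega
  subst e
  interval_cases X <;> first | rfl | (exfalso; revert h2; decide) | (exfalso; revert hodd; decide)

end Cfsg.Agent.Lib.Helper63.H581
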