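import Mathlib
import Cfsg.Agent.Lib.Helper63.H581.Defs

set_option autoImplicit false

namespace Cfsg.Agent.Lib.Helper63.H581

open Equiv Equiv.Perm MulAction

theorem card_fx_eq {α : Type*} [Fintype α] [DecidableEq α] (G : Subgroup (Perm α))
    (x : Fin 4 ↪ α) : Nat.card (fx G x) = Nat.card (MulAction.stabilizer G x) := by
  symm
  apply Nat.card_congr
  refine ⟨fun g => ⟨(g : G), (g : G).2, fun j => ?_⟩, fun g => ⟨⟨g, g.2.1⟩, ?_⟩, ?_, ?_⟩
  · have := congrArg (fun f : Fin 4 ↪ α => f j) (mem_stabilizer_iff.1 g.2)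
    exact this
  · rw [mem_stabilizer_iff]
    ext j
    exact g.2.2 j
  · intro g; rfl
  · intro g; rfl

end Cfsg.Agent.Lib.Helper63.H581
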