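import Mathlib
import Cfsg.Agent.Lib.Helper63.H581.Defs
import Cfsg.Agent.Lib.Helper63.H581.OC

set_option autoImplicit false

namespace Cfsg.Agent.Lib.Helper63.H581

open Equiv Equiv.Perm MulAction

theorem card_G {α : Type*} [Fintype α] [DecidableEq α] (G : Subgroup (Perm α))
    (hG : IsMultiplyPretransitive G α 4) (x : Fin 4 ↪ α) :
    Nat.card G = (Fintype.card α).descFactorial 4 * Nat.card (fx G x) := by
  have h := orbit_count G Set.univ x (fun _ _ _ _ => Set.mem_univ _) (by
    intro y _
    obtain ⟨g, hg⟩ := hG.exists_smul_eq x y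
    refine ⟨g, g.2, fun j => ?_⟩
    have := congrArg (fun f : Fin 4 ↪ α => f j) hg
    exact this)
  rw [h, Nat.card_coe_set_eq, Set.ncard_univ, Nat.card_eq_fintype_card,
    Fintype.card_embedding_eq, Fintype.card_fin]

end Cfsg.Agent.Lib.Helper63.H581
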