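import Mathlib
import Cfsg.Agent.Lib.Helper63.H581.Defs

set_option autoImplicit false

namespace Cfsg.Agent.Lib.Helper63.H581

open Equiv Equiv.Perm MulAction

theorem odd_fix {α : Type*} [Fintype α] [DecidableEq α] (o : Perm α) (hodd : Odd (orderOf o))
    (p : α) (h : o (o p) = p) : o p = p := by
  obtain ⟨j, hj⟩ := hodd
  have h1 : o = (o * o) ^ (j + 1) := by
    rw [← sq, ← pow_mul]
    have : 2 * (j + 1) = orderOf o + 1 := by omega
    rw [this, pow_succ, pow_orderOf_eq_one, one_mul]
  have h2 : (o * o) p = p := by rw [Perm.mul_apply]; exact h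
  have h3 : ((o * o) ^ (j + 1)) p = p := Equiv.Perm.pow_apply_eq_self_of_apply_eq_self h2 _
  rw [← h1] at h3
  exact h3

end Cfsg.Agent.Lib.Helper63.H581
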