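import Mathlib
import Cfsg.Agent.Lib.Helper63.H581.Defs
import Cfsg.Agent.Lib.Helper63.H581.ODDFIX
import Cfsg.Agent.Lib.Helper63.H581.FRD

set_option autoImplicit false

namespace Cfsg.Agent.Lib.Helper63.H581

open Equiv Equiv.Perm MulAction

theorem fix_fR {α : Type*} [Fintype α] [DecidableEq α] (a b o : Perm α) (ha2 : a * a = 1)
    (hb2 : b * b = 1) (hab : a * b = b * a) (hoa : o * a = a * o) (hob : o * b = b * o)
    (hodd : Odd (orderOf o)) (hR : (fR a b).card = 4) : ∀ p ∈ fR a b, o p = p := by
  intro p hp
  have habx : ∀ p, a (b p) = b (a p) := fun p => by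
    have := congrArg (fun f : Perm α => f p) hab
    simpa using this
  have haa : ∀ p, a (a p) = p := fun p => by
    have := congrArg (fun f : Perm α => f p) ha2
    simpa using this
  have hbb : ∀ p, b (b p) = p := fun p => by
    have := congrArg (fun f : Perm α => f p) hb2
    simpa using this
  have hoax : ∀ p, o (a p) = a (o p) := fun p => by
    have := congrArg (fun f : Perm α => f p) hoa
    simpa using this
  have hobx : ∀ p, o (b p) = b (o p) := fun p => by
    have := congrArg (fun f : Perm α => f p) hob
    simpa using this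
  obtain ⟨n1, n2, n3, n4, n5, n6⟩ := fR_ne a b ha2 hb2 hab p hp
  obtain ⟨m1, m2, m3⟩ := mem_fR.1 hp
  -- the four points lie in fR
  have hsub : ({p, a p, b p, a (b p)} : Finset α) ⊆ fR a b := by
    intro z hz
    simp only [Finset.mem_insert, Finset.mem_singleton] at hz
    rcases hz with rfl | rfl | rfl | rfl
    · exact hp
    · rw [mem_fR]
      refine ⟨fun h => m1 (a.injective h), ?_, ?_⟩
      · rw [← habx]; exact fun h => n5 h.symm
      · rw [← habx, haa]; exact fun h => n4 h.symm
    · rw [mem_fR]
      refine ⟨fun h => n6 h.symm, fun h => m2 (b.injective h), ?_⟩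
      rw [hbb]; exact n4
    · rw [mem_fR]
      refine ⟨?_, ?_, ?_⟩
      · rw [haa]; exact n6
      · rw [← habx, hbb]; exact n5
      · rw [← habx, hbb, haa]; exact n3
  have hc4 : ({p, a p, b p, a (b p)} : Finset α).card = 4 := by
    rw [Finset.card_insert_of_notMem, Finset.card_insert_of_notMem, Finset.card_pair n6]
    · simp only [Finset.mem_insert, Finset.mem_singleton, not_or]
      exact ⟨n4, n5⟩
    · simp only [Finset.mem_insert, Finset.mem_singleton, not_or]
      exact ⟨n1, n2, n3⟩
  have heq : ({p, a p, b p, a (b p)} : Finset α) = fR a b :=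
    Finset.eq_of_subset_of_card_le hsub (by rw [hc4, hR])
  have hop : o p ∈ fR a b := by
    rw [mem_fR]
    refine ⟨?_, ?_, ?_⟩
    · rw [← hoax]; exact fun h => m1 (o.injective h)
    · rw [← hobx]; exact fun h => m2 (o.injective h)
    · rw [← hobx, ← hoax]; exact fun h => m3 (o.injective h)
  rw [← heq] at hop
  simp only [Finset.mem_insert, Finset.mem_singleton] at hop
  apply odd_fix o hodd
  rcases hop with h | h | h | h
  · rw [h, h]
  · rw [h, hoax, h, haa]
  · rw [h, hobx, h, hbb]
  · rw [h, hoax, hobx, h, ← habx, hbb, haa]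

end Cfsg.Agent.Lib.Helper63.H581
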