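import Mathlib
import Cfsg.Agent.Lib.Helper63.H581.Defs

set_option autoImplicit false

namespace Cfsg.Agent.Lib.Helper63.H581

open Equiv Equiv.Perm MulAction

theorem part1_fix {α : Type*} [Fintype α] [DecidableEq α] (a : Perm α) :
    (Finset.univ.filter fun p => a p = p).card + a.support.card = Fintype.card α := by
  have h := Finset.card_filter_add_card_filter_not (s := (Finset.univ : Finset α))
    (fun p => a p = p)
  have h2 : (Finset.univ.filter fun p => ¬ a p = p) = a.support := by
    ext p; simp
  rw [h2] at h
  exact h

theorem part1_split {α : Type*} [Fintype α] [DecidableEq α] (a b : Perm α) :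
    (Finset.univ.filter fun p => a p = p).card =
      (Finset.univ.filter fun p => a p = p ∧ b p = p).card + (fAB a b).card := by
  have h := Finset.card_filter_add_card_filter_not
    (s := (Finset.univ.filter fun p => a p = p)) (fun p => b p = p)
  rw [Finset.filter_filter, Finset.filter_filter] at h
  exact h.symm

theorem card_fAB_mul {α : Type*} [Fintype α] [DecidableEq α] (a b : Perm α)
    (hm : (a * b).support.card = a.support.card) :
    (fAB (a * b) a).card = (fAB a b).card := by
  have h1 := part1_fix a
  have h2 := part1_fix (a * b)
  have h3 := part1_split a b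
  have h4 := part1_split (a * b) a
  have h5 : (Finset.univ.filter fun p => (a * b) p = p ∧ a p = p) =
      (Finset.univ.filter fun p => a p = p ∧ b p = p) := by
    ext p
    rw [Finset.mem_filter, Finset.mem_filter, Perm.mul_apply]
    simp only [Finset.mem_univ, true_and]
    constructor
    · rintro ⟨h, h'⟩
      refine ⟨h', ?_⟩
      apply a.injective
      rw [h, h']
    · rintro ⟨h, h'⟩
      exact ⟨by rw [h', h], h⟩
  rw [h5] at h4
  omega

end Cfsg.Agent.Lib.Helper63.H581
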