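import Mathlib
import Cfsg.Agent.Lib.Helper63.H581.Defs
import Cfsg.Agent.Lib.Helper63.H581.ODDFIX

set_option autoImplicit false

namespace Cfsg.Agent.Lib.Helper63.H581

open Equiv Equiv.Perm MulAction

theorem small_inv {α : Type*} [Fintype α] [DecidableEq α] (o : Perm α) (hodd : Odd (orderOf o))
    (S : Finset α) (hS : ∀ p ∈ S, o p ∈ S) (hcard : S.card ≤ 2) : ∀ p ∈ S, o p = p := by
  intro p hp
  by_contra hne
  apply hne
  apply odd_fix o hodd
  by_contra hne2
  have h1 : o (o p) ≠ o p := fun h => hne (o.injective h)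
  have hsub : ({p, o p, o (o p)} : Finset α) ⊆ S := by
    intro z hz
    simp only [Finset.mem_insert, Finset.mem_singleton] at hz
    rcases hz with rfl | rfl | rfl
    · exact hp
    · exact hS _ hp
    · exact hS _ (hS _ hp)
  have h3 : ({p, o p, o (o p)} : Finset α).card = 3 := by
    rw [Finset.card_eq_three]
    exact ⟨p, o p, o (o p), fun h => hne h.symm, fun h => hne2 h.symm, fun h => h1 h.symm, rfl⟩
  have := Finset.card_le_card hsub
  omega

end Cfsg.Agent.Lib.Helper63.H581
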