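import Mathlib
import Cfsg.Agent.Lib.Helper63.H581.Defs
import Cfsg.Agent.Lib.Helper63.H581.SINV
import Cfsg.Agent.Lib.Helper63.H581.N11R
import Cfsg.Agent.Lib.Helper63.H581.PART1

set_option autoImplicit false

namespace Cfsg.Agent.Lib.Helper63.H581

open Equiv Equiv.Perm MulAction

theorem n11_inv {α : Type*} [Fintype α] [DecidableEq α] (u v o : Perm α) (hou : o * u = u * o)
    (hov : o * v = v * o) : ∀ p ∈ fAB u v, o p ∈ fAB u v := by
  intro p hp
  have houx : ∀ p, o (u p) = u (o p) := fun p => by
    have := congrArg (fun f : Perm α => f p) hou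
    simpa using this
  have hovx : ∀ p, o (v p) = v (o p) := fun p => by
    have := congrArg (fun f : Perm α => f p) hov
    simpa using this
  obtain ⟨h1, h2⟩ := mem_fAB.1 hp
  rw [mem_fAB]
  refine ⟨by rw [← houx, h1], ?_⟩
  rw [← hovx]
  exact fun h => h2 (o.injective h)

theorem eq_one_of_comm {α : Type*} [Fintype α] [DecidableEq α] (a b o : Perm α) (ha2 : a * a = 1)
    (hb2 : b * b = 1) (hab : a * b = b * a) (hoa : o * a = a * o) (hob : o * b = b * o)
    (hodd : Odd (orderOf o)) (hle : Fintype.card α ≤ a.support.card + 3)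
    (h1 : (fAB a b).card = 2) (h2 : (fAB b a).card = 2) (h3 : (fAB (a * b) a).card = 2)
    (hR : (fR a b).card = 4) : o = 1 := by
  have hoc : o * (a * b) = (a * b) * o := by
    rw [← mul_assoc, hoa, mul_assoc, hob, ← mul_assoc]
  have hoax : ∀ p, o (a p) = a (o p) := fun p => by
    have := congrArg (fun f : Perm α => f p) hoa
    simpa using this
  have hobx : ∀ p, o (b p) = b (o p) := fun p => by
    have := congrArg (fun f : Perm α => f p) hob
    simpa using this
  have hF : (Finset.univ.filter fun p => a p = p ∧ b p = p).card ≤ 2 := by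
    have e1 := part1_fix a
    have e2 := part1_split a b
    omega
  ext p
  show o p = p
  by_cases hap : a p = p
  · by_cases hbp : b p = p
    · apply small_inv o hodd _ _ hF p (by simp [hap, hbp])
      intro q hq
      rw [Finset.mem_filter] at hq ⊢
      refine ⟨Finset.mem_univ _, ?_, ?_⟩
      · rw [← hoax, hq.2.1]
      · rw [← hobx, hq.2.2]
    · exact small_inv o hodd _ (n11_inv a b o hoa hob) h1.le p (mem_fAB.2 ⟨hap, hbp⟩)
  · by_cases hbp : b p = p
    · exact small_inv o hodd _ (n11_inv b a o hob hoa) h2.le p (mem_fAB.2 ⟨hbp, hap⟩)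
    · by_cases hcp : a (b p) = p
      · exact small_inv o hodd _ (n11_inv (a * b) a o hoc hoa) h3.le p (mem_fAB.2 ⟨hcp, hap⟩)
      · exact fix_fR a b o ha2 hb2 hab hoa hob hodd hR p (mem_fR.2 ⟨hap, hbp, hcp⟩)

end Cfsg.Agent.Lib.Helper63.H581
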