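import Mathlib
import Cfsg.Agent.Lib.Helper63.H581.Defs

set_option autoImplicit false

namespace Cfsg.Agent.Lib.Helper63.H581

open Equiv Equiv.Perm MulAction

theorem norm_fx {α : Type*} (K : Subgroup (Perm α)) (t : Perm α) (ht : t ∈ K)
    (π : Perm (Fin 4)) (x : Fin 4 ↪ α) (hx : x ∈ pat t π) :
    ∀ h ∈ fx K x, t * h * t⁻¹ ∈ fx K x := by
  rintro h ⟨hh, hh'⟩
  refine ⟨K.mul_mem (K.mul_mem ht hh) (K.inv_mem ht), fun j => ?_⟩
  have h1 : t⁻¹ (x j) = x (π⁻¹ j) := by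
    rw [Equiv.Perm.inv_eq_iff_eq, hx (π⁻¹ j)]
    simp
  rw [Perm.mul_apply, Perm.mul_apply, h1, hh', hx (π⁻¹ j)]
  simp

end Cfsg.Agent.Lib.Helper63.H581
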