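import Mathlib
import Cfsg.Agent.Lib.Helper63.H581.Defs

set_option autoImplicit false

namespace Cfsg.Agent.Lib.Helper63.H581

open Equiv Equiv.Perm MulAction

theorem card_support_split {α : Type*} [Fintype α] [DecidableEq α] (a b : Perm α) :
    a.support.card = (fAB b a).card + (fAB (a * b) a).card + (fR a b).card := by
  have h1 : Disjoint (fAB b a) (fAB (a * b) a) := by
    rw [Finset.disjoint_left]
    intro p hp hp'
    obtain ⟨h1, h2⟩ := mem_fAB.1 hp
    obtain ⟨h3, -⟩ := mem_fAB.1 hp'
    rw [Perm.mul_apply, h1] at h3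
    exact h2 h3
  have h2 : Disjoint (fAB b a ∪ fAB (a * b) a) (fR a b) := by
    rw [Finset.disjoint_left]
    intro p hp hp'
    obtain ⟨-, h4, h5⟩ := mem_fR.1 hp'
    rcases Finset.mem_union.1 hp with h | h
    · exact h4 (mem_fAB.1 h).1
    · exact h5 (mem_fAB.1 h).1
  have h3 : a.support = fAB b a ∪ fAB (a * b) a ∪ fR a b := by
    ext p
    simp only [Finset.mem_union, mem_fAB, mem_fR, Equiv.Perm.mem_support, Perm.mul_apply]
    constructor
    · intro h
      by_cases hb : b p = p
      · exact Or.inl (Or.inl ⟨hb, h⟩)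
      · by_cases hc : a (b p) = p
        · exact Or.inl (Or.inr ⟨hc, h⟩)
        · exact Or.inr ⟨h, hb, hc⟩
    · rintro ((h | h) | h)
      · exact h.2
      · exact h.2
      · exact h.1
  rw [h3, Finset.card_union_of_disjoint h2, Finset.card_union_of_disjoint h1]

end Cfsg.Agent.Lib.Helper63.H581
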