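import Mathlib
import Cfsg.Agent.Lib.Helper63.H581.Defs

set_option autoImplicit false

namespace Cfsg.Agent.Lib.Helper63.H581

open Equiv Equiv.Perm MulAction

theorem fx_eq_of_range {α : Type*} (K : Subgroup (Perm α)) (x y : Fin 4 ↪ α)
    (h : Set.range x = Set.range y) : fx K x = fx K y := by
  ext g
  constructor
  · rintro ⟨hg, hg'⟩
    refine ⟨hg, fun j => ?_⟩
    obtain ⟨k, hk⟩ : y j ∈ Set.range x := by rw [h]; exact ⟨j, rfl⟩
    rw [← hk, hg']
  · rintro ⟨hg, hg'⟩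
    refine ⟨hg, fun j => ?_⟩
    obtain ⟨k, hk⟩ : x j ∈ Set.range y := by rw [← h]; exact ⟨j, rfl⟩
    rw [← hk, hg']

end Cfsg.Agent.Lib.Helper63.H581
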