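import Mathlib
import Cfsg.Agent.Lib.Helper63.H581.Defs
import Cfsg.Agent.Lib.Helper63.H581.HG

set_option autoImplicit false

namespace Cfsg.Agent.Lib.Helper63.H581

open Equiv Equiv.Perm MulAction

theorem small45 {α : Type*} [Fintype α] [DecidableEq α] (G : Subgroup (Perm α))
    (hG : IsMultiplyPretransitive G α 4) (x : Fin 4 ↪ α)
    (hn : Fintype.card α = 4 ∨ Fintype.card α = 5) : G = ⊤ := by
  have h1 := card_G G hG x
  have hpos : 0 < Nat.card (fx G x) := Nat.card_pos
  apply Subgroup.eq_top_of_le_card
  rw [Nat.card_perm, Nat.card_eq_fintype_card, h1]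
  rcases hn with h | h
  · rw [h]
    have e1 : Nat.factorial 4 = 24 := by decide
    have e2 : Nat.descFactorial 4 4 = 24 := by decide
    rw [e1, e2]; omega
  · rw [h]
    have e1 : Nat.factorial 5 = 120 := by decide
    have e2 : Nat.descFactorial 5 4 = 120 := by decide
    rw [e1, e2]; omega

end Cfsg.Agent.Lib.Helper63.H581
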