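import Mathlib
import Cfsg.Agent.Lib.Helper10.Sharp4
import Cfsg.Agent.Lib.Helper63.H581.Defs
import Cfsg.Agent.Lib.Helper63.H581.HG
import Cfsg.Agent.Lib.Helper63.H581.HC

set_option autoImplicit false

namespace Cfsg.Agent.Lib.Helper63.H581

open Equiv Equiv.Perm MulAction

theorem small67 {α : Type*} [Fintype α] [DecidableEq α] (G : Subgroup (Perm α))
    (hG : IsMultiplyPretransitive G α 4) (x : Fin 4 ↪ α) (hodd : Odd (Nat.card (fx G x)))
    (hn : Fintype.card α = 6 ∨ Fintype.card α = 7) : G = alternatingGroup α := by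
  have h1 := card_G G hG x
  have hpos : 0 < Nat.card (fx G x) := Nat.card_pos
  have h2 : Nat.card G ∣ Nat.card (Perm α) := Subgroup.card_subgroup_dvd_card G
  have h3 := Subgroup.card_mul_index G
  have hca : Nat.card α = Fintype.card α := Nat.card_eq_fintype_card
  rw [Nat.card_perm, hca] at h2 h3
  apply Equiv.Perm.eq_alternatingGroup_of_index_eq_two
  rcases hn with h | h
  · rw [h] at h1 h2 h3
    have e1 : Nat.factorial 6 = 360 * 2 := by decide
    have e2 : Nat.descFactorial 6 4 = 360 := by decide
    rw [e1] at h2 h3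
    rw [e2] at h1
    rw [h1] at h2 h3
    have h4 : Nat.card (fx G x) ∣ 2 := Nat.dvd_of_mul_dvd_mul_left (by norm_num) h2
    have h5 : Nat.card (fx G x) ≤ 2 := Nat.le_of_dvd (by norm_num) h4
    have h6 : Nat.card (fx G x) = 1 := by
      obtain ⟨k, hk⟩ := hodd
      omega
    rw [h6] at h3
    omega
  · rw [h] at h1 h2 h3
    have e1 : Nat.factorial 7 = 840 * 6 := by decide
    have e2 : Nat.descFactorial 7 4 = 840 := by decide
    rw [e1] at h2 h3
    rw [e2] at h1
    have h1' := h1
    rw [h1] at h2 h3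
    have h4 : Nat.card (fx G x) ∣ 6 := Nat.dvd_of_mul_dvd_mul_left (by norm_num) h2
    have h5 : Nat.card (fx G x) ≤ 6 := Nat.le_of_dvd (by norm_num) h4
    have h6 : Nat.card (fx G x) = 1 ∨ Nat.card (fx G x) = 3 := by
      obtain ⟨k, hk⟩ := hodd
      have : Nat.card (fx G x) ≠ 5 := by
        intro h7; rw [h7] at h4; revert h4; decide
      omega
    rcases h6 with h6 | h6
    · exfalso
      have hsharp : ∀ y : Fin 4 ↪ α, stabilizer G y = ⊥ := by
        intro y
        have h7 := card_G G hG y
        rw [h, e2, h1', h6] at h7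
        have h8 : Nat.card (fx G y) = 1 := by omega
        rw [card_fx_eq] at h8
        exact Subgroup.card_eq_one.1 h8
      have := (Cfsg.Agent.Lib.Helper10.sharp4_degree hG hsharp ⟨x⟩).2
      rw [Nat.card_eq_fintype_card, h] at this
      omega
    · rw [h6] at h3
      omega

end Cfsg.Agent.Lib.Helper63.H581
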