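import Mathlib
import Cfsg.Agent.Lib.Helper63.H581.Defs
import Cfsg.Agent.Lib.Helper63.H581.DIH
import Cfsg.Agent.Lib.Helper63.H581.TR
import Cfsg.Agent.Lib.Helper63.H581.INV
import Cfsg.Agent.Lib.Helper63.H581.OC
import Cfsg.Agent.Lib.Helper63.H581.LV1
import Cfsg.Agent.Lib.Helper63.H581.LV2
import Cfsg.Agent.Lib.Helper63.H581.E1
import Cfsg.Agent.Lib.Helper63.H581.E2
import Cfsg.Agent.Lib.Helper63.H581.E3
import Cfsg.Agent.Lib.Helper63.H581.FRD
import Cfsg.Agent.Lib.Helper63.H581.E4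
import Cfsg.Agent.Lib.Helper63.H581.BW
import Cfsg.Agent.Lib.Helper63.H581.I1
import Cfsg.Agent.Lib.Helper63.H581.CONJ
import Cfsg.Agent.Lib.Helper63.H581.CENEQ
import Cfsg.Agent.Lib.Helper63.H581.EXAB
import Cfsg.Agent.Lib.Helper63.H581.AB2
import Cfsg.Agent.Lib.Helper63.H581.PART1
import Cfsg.Agent.Lib.Helper63.H581.PART2
import Cfsg.Agent.Lib.Helper63.H581.ARITH
import Cfsg.Agent.Lib.Helper63.H581.N11
import Cfsg.Agent.Lib.Helper63.H581.FIN11
import Cfsg.Agent.Lib.Helper63.H581.HC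
import Cfsg.Agent.Lib.Helper63.H581.HG
import Cfsg.Agent.Lib.Helper63.H581.RANGE
import Cfsg.Agent.Lib.Helper63.H581.NORM
import Cfsg.Agent.Lib.Helper63.H581.SM45
import Cfsg.Agent.Lib.Helper63.H581.SM67

set_option autoImplicit false

namespace Cfsg.Agent.Lib.Helper63.H581

open Equiv Equiv.Perm MulAction

theorem main_range {α : Type*} (x : Fin 4 ↪ α) : Set.range x = {x 0, x 1, x 2, x 3} := by
  ext z
  constructor
  · rintro ⟨j, rfl⟩
    fin_cases j <;> simp
  · intro hz
    simp only [Set.mem_insert_iff, Set.mem_singleton_iff] at hz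
    rcases hz with rfl | rfl | rfl | rfl <;> exact ⟨_, rfl⟩

theorem main8 {α : Type*} [Fintype α] [DecidableEq α] (G : Subgroup (Perm α))
    (hG : IsMultiplyPretransitive G α 4) (x : Fin 4 ↪ α) (hoddx : Odd (Nat.card (fx G x)))
    (hn : 8 ≤ Fintype.card α) : Fintype.card α = 11 ∧ Nat.card G = 7920 := by
  classical
  have hpos : 0 < (Fintype.card α).descFactorial 4 := Nat.descFactorial_pos.2 (by omega)
  have hcard : ∀ y : Fin 4 ↪ α, Nat.card (fx G y) = Nat.card (fx G x) := by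
    intro y
    have h1 := card_G G hG x
    have h2 := card_G G hG y
    exact Nat.eq_of_mul_eq_mul_left hpos (h2.symm.trans h1)
  have hodd : ∀ y : Fin 4 ↪ α, Odd (Nat.card (fx G y)) := fun y => by rw [hcard y]; exact hoddx
  obtain ⟨a, haG, b, hbG, ha2, hb2, hab, hxa, hxb⟩ := exists_ab G hG hodd x
  obtain ⟨a0, a1, a23, a32⟩ := mem_pat1.1 hxa
  obtain ⟨b01, b10, b2, b3⟩ := mem_pat0.1 hxb
  have hne : ∀ i j : Fin 4, i ≠ j → x i ≠ x j := fun i j hij h => hij (x.injective h)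
  have habx : ∀ p, a (b p) = b (a p) := fun p => by
    have := congrArg (fun f : Perm α => f p) hab
    simpa using this
  have haa : ∀ p, a (a p) = p := fun p => by
    have := congrArg (fun f : Perm α => f p) ha2
    simpa using this
  have hbb : ∀ p, b (b p) = p := fun p => by
    have := congrArg (fun f : Perm α => f p) hb2
    simpa using this
  have ha1 : a ≠ 1 := by
    intro h; rw [h] at a23; exact hne 2 3 (by decide) a23
  have hb1 : b ≠ 1 := by
    intro h; rw [h] at b01; exact hne 0 1 (by decide) b01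
  have hcG : a * b ∈ G := G.mul_mem haG hbG
  have hc2 : (a * b) * (a * b) = 1 := by
    calc (a * b) * (a * b) = a * (b * a) * b := by group
      _ = a * (a * b) * b := by rw [hab]
      _ = (a * a) * (b * b) := by group
      _ = 1 := by rw [ha2, hb2, one_mul]
  have hc1 : a * b ≠ 1 := by
    intro h
    have h1 : (a * b) (x 0) = x 1 := by rw [Perm.mul_apply, b01, a1]
    rw [h] at h1
    exact hne 0 1 (by decide) h1
  -- conjugacy
  obtain ⟨g1, hg1, hg1b⟩ := inv_conj G hG hodd hn b a hbG haG hb2 ha2 hb1 ha1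
  obtain ⟨g2, hg2, hg2c⟩ := inv_conj G hG hodd hn (a * b) a hcG haG hc2 ha2 hc1 ha1
  have hmb : b.support.card = a.support.card := by rw [← hg1b, card_support_conj]
  have hmc : (a * b).support.card = a.support.card := by rw [← hg2c, card_support_conj]
  have hZb : Nat.card (cen G b) = Nat.card (cen G a) := by rw [← hg1b, card_cen_conj G g1 a hg1]
  have hZc : Nat.card (cen G (a * b)) = Nat.card (cen G a) := by
    rw [← hg2c, card_cen_conj G g2 a hg2]
  have hle := fix_le_three G hodd a haG ha2 ha1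
  have hleb : Fintype.card α ≤ b.support.card + 3 := by rw [hmb]; exact hle
  have hAB := fAB_eq a b hb2 hab (x 0) (x 1) (hne 0 1 (by decide)) a0 a1 b01 hle
  have hBA := fAB_eq b a ha2 hab.symm (x 2) (x 3) (hne 2 3 (by decide)) b2 b3 a23 hleb
  have hABc : (fAB a b).card = 2 := by rw [hAB, Finset.card_pair (hne 0 1 (by decide))]
  have hBAc : (fAB b a).card = 2 := by rw [hBA, Finset.card_pair (hne 2 3 (by decide))]
  have hCAc : (fAB (a * b) a).card = 2 := by rw [card_fAB_mul a b hmc, hABc]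
  have hsplit := card_support_split a b
  rw [hBAc, hCAc] at hsplit
  -- at least two fixed points
  have hge : a.support.card + 2 ≤ Fintype.card α := by
    have h1 : Disjoint a.support (fAB a b) := by
      rw [Finset.disjoint_left]
      intro p hp hp'
      exact (Equiv.Perm.mem_support.1 hp) (mem_fAB.1 hp').1
    have h2 := Finset.card_le_univ (a.support ∪ fAB a b)
    rw [Finset.card_union_of_disjoint h1, hABc] at h2
    exact h2
  obtain ⟨m, hm⟩ : ∃ m, m = a.support.card := ⟨_, rfl⟩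
  obtain ⟨ρ, hρ⟩ : ∃ ρ, ρ = (fR a b).card := ⟨_, rfl⟩
  obtain ⟨i, hi⟩ : ∃ i, i = Fintype.card α - a.support.card := ⟨_, rfl⟩
  have hρpos : 0 < (fR a b).card := by omega
  obtain ⟨r, hr⟩ := Finset.card_pos.1 hρpos
  obtain ⟨n1, n2, n3, n4, n5, n6⟩ := fR_ne a b ha2 hb2 hab r hr
  -- tuples
  let x0' : Fin 4 ↪ α := mk4 (x 2) (x 3) (x 0) (x 1)
    ⟨hne _ _ (by decide), hne _ _ (by decide), hne _ _ (by decide), hne _ _ (by decide),
      hne _ _ (by decide), hne _ _ (by decide)⟩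
  let x1 : Fin 4 ↪ α := mk4 r (a r) (b r) (a (b r)) ⟨n1, n2, n3, n4, n5, n6⟩
  let x1' : Fin 4 ↪ α := mk4 r (b r) (a r) (a (b r)) ⟨n2, n1, n3, n4.symm, n6, n5⟩
  let x1'' : Fin 4 ↪ α := mk4 r (a (b r)) (a r) (b r) ⟨n3, n1, n2, n5.symm, n6.symm, n4⟩
  have hx0'b : x0' ∈ pat b (swap 2 3) := mem_pat1.2 ⟨b2, b3, b01, b10⟩
  have hxc : x ∈ pat (a * b) (swap 0 1 * swap 2 3) := by
    refine mem_pat2.2 ⟨?_, ?_, ?_, ?_⟩
    · rw [Perm.mul_apply, b01, a1]
    · rw [Perm.mul_apply, b10, a0]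
    · rw [Perm.mul_apply, b2, a23]
    · rw [Perm.mul_apply, b3, a32]
  have hx1a : x1 ∈ pat a (swap 0 1 * swap 2 3) := mem_pat2.2 ⟨rfl, haa r, rfl, haa (b r)⟩
  have hx1b : x1 ∈ pat b (swap 0 2 * swap 1 3) := by
    refine mem_pat3.2 ⟨rfl, ?_, hbb r, ?_⟩
    · show b (a r) = a (b r)
      rw [habx]
    · show b (a (b r)) = a r
      rw [← habx, hbb]
  have hx1'b : x1' ∈ pat b (swap 0 1 * swap 2 3) := by
    refine mem_pat2.2 ⟨rfl, hbb r, ?_, ?_⟩
    · show b (a r) = a (b r)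
      rw [habx]
    · show b (a (b r)) = a r
      rw [← habx, hbb]
  have hx1''c : x1'' ∈ pat (a * b) (swap 0 1 * swap 2 3) := by
    refine mem_pat2.2 ⟨rfl, ?_, ?_, ?_⟩
    · show (a * b) (a (b r)) = r
      rw [Perm.mul_apply, ← habx, hbb, haa]
    · show (a * b) (a r) = b r
      rw [Perm.mul_apply, ← habx, haa]
    · show (a * b) (b r) = a r
      rw [Perm.mul_apply, hbb]
  have hr0 : fx G x0' = fx G x := by
    apply fx_eq_of_range
    rw [main_range, main_range]
    show ({x 2, x 3, x 0, x 1} : Set α) = _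
    ext z
    simp only [Set.mem_insert_iff, Set.mem_singleton_iff]
    tauto
  have hr1' : fx G x1' = fx G x1 := by
    apply fx_eq_of_range
    rw [main_range, main_range]
    show ({r, b r, a r, a (b r)} : Set α) = {r, a r, b r, a (b r)}
    ext z
    simp only [Set.mem_insert_iff, Set.mem_singleton_iff]
    tauto
  have hr1'' : fx G x1'' = fx G x1 := by
    apply fx_eq_of_range
    rw [main_range, main_range]
    show ({r, a (b r), a r, b r} : Set α) = {r, a r, b r, a (b r)}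
    ext z
    simp only [Set.mem_insert_iff, Set.mem_singleton_iff]
    tauto
  -- level 1
  have L1a := level1 G hG hodd a haG ha2 (swap 2 3) x hxa
  have L1b := level1 G hG hodd b hbG hb2 (swap 2 3) x0' hx0'b
  have L1c := level1 G hG hodd (a * b) hcG hc2 (swap 0 1 * swap 2 3) x hxc
  have L1a' := level1 G hG hodd a haG ha2 (swap 0 1 * swap 2 3) x1 hx1a
  have L1b' := level1 G hG hodd b hbG hb2 (swap 0 1 * swap 2 3) x1' hx1'b
  have L1c' := level1 G hG hodd (a * b) hcG hc2 (swap 0 1 * swap 2 3) x1'' hx1''c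
  rw [card_pat1 a ha2, ← hi, ← hm] at L1a
  rw [card_pat1 b hb2, hmb, ← hi, ← hm, hr0, hZb] at L1b
  rw [card_pat2 _ hc2, hmc, ← hm, hZc] at L1c
  rw [card_pat2 _ ha2, ← hm] at L1a'
  rw [card_pat2 _ hb2, hmb, ← hm, hr1', hZb] at L1b'
  rw [card_pat2 _ hc2, hmc, ← hm, hr1'', hZc] at L1c'
  -- level 2
  have L2 := level2 G hG hodd a b haG hbG ha2 hb2 hab (swap 2 3) (swap 0 1) x hxa hxb
  have L2' := level2 G hG hodd a b haG hbG ha2 hb2 hab (swap 0 1 * swap 2 3)
    (swap 0 2 * swap 1 3) x1 hx1a hx1b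
  rw [card_pat_ab0 a b ha2 hb2 hab, hABc, hBAc] at L2
  rw [card_pat_ab1 a b ha2 hb2 hab, ← hρ] at L2'
  -- Brauer-Wielandt
  have BW0 := bw (fx G x) (hodd x) a b ha2 hb2 hab (norm_fx G a haG _ x hxa)
    (norm_fx G b hbG _ x hxb)
  have BW1 := bw (fx G x1) (hodd x1) a b ha2 hb2 hab (norm_fx G a haG _ x1 hx1a)
    (norm_fx G b hbG _ x1 hx1b)
  rw [hcard x1] at BW1
  -- identify the numbers
  have hm5 : 5 ≤ m := by omega
  have hi2 : 2 ≤ i := by omega
  have hi3 : i ≤ 3 := by omega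
  have hcoef1 : 0 < i * (i - 1) * m := by
    apply Nat.mul_pos (Nat.mul_pos (by omega) (by omega)) (by omega)
  have hcoef2 : 0 < m * (m - 2) := Nat.mul_pos (by omega) (by omega)
  have hyb : Nat.card (cen (fx G x) b) = Nat.card (cen (fx G x) a) :=
    Nat.eq_of_mul_eq_mul_left hcoef1 (L1b.symm.trans L1a)
  have hXa' : Nat.card (cen (fx G x1) a) = Nat.card (cen (fx G x) (a * b)) :=
    Nat.eq_of_mul_eq_mul_left hcoef2 (L1a'.symm.trans L1c)
  have hXb' : Nat.card (cen (fx G x1) b) = Nat.card (cen (fx G x) (a * b)) :=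
    Nat.eq_of_mul_eq_mul_left hcoef2 (L1b'.symm.trans L1c)
  have hXc' : Nat.card (cen (fx G x1) (a * b)) = Nat.card (cen (fx G x) (a * b)) :=
    Nat.eq_of_mul_eq_mul_left hcoef2 (L1c'.symm.trans L1c)
  rw [hyb] at BW0
  rw [hXa', hXb', hXc'] at BW1
  have hXpos : 0 < Nat.card (cen (fx G x) (a * b)) := Nat.card_pos
  have hhpos : 0 < Nat.card (fx G x) := Nat.card_pos
  obtain ⟨hi3', hρ4⟩ := arith i m ρ (Nat.card (fx G x)) (Nat.card (cen (cen (fx G x) a) b))
    (Nat.card (cen (cen (fx G x1) a) b)) (Nat.card (cen (fx G x) a))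
    (Nat.card (cen (fx G x) (a * b))) (Nat.card (cen G a)) (Nat.card (cen (cen G a) b))
    (by omega) (by omega) hXpos hhpos L1a L1c (by rw [L2]) L2' BW0 BW1
  have hn11 : Fintype.card α = 11 := by omega
  refine ⟨hn11, ?_⟩
  -- the stabiliser is trivial
  have hc0 : Nat.card (cen (cen (fx G x) a) b) = 1 := by
    rw [Subgroup.card_eq_one, Subgroup.eq_bot_iff_forall]
    intro o ho
    obtain ⟨⟨ho1, hoa⟩, hob⟩ := ho
    have hoo : Odd (orderOf o) := by
      have h1 : orderOf (⟨o, ho1⟩ : fx G x) ∣ Nat.card (fx G x) := orderOf_dvd_natCard _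
      rw [Subgroup.orderOf_mk] at h1
      exact Odd.of_dvd_nat (hodd x) h1
    exact eq_one_of_comm a b o ha2 hb2 hab hoa hob hoo hle hABc hBAc hCAc (by omega)
  have hc1' : Nat.card (cen (cen (fx G x1) a) b) = 1 := by
    rw [L2, hc0, hρ4] at L2'
    omega
  rw [hc1'] at BW1
  have hh1 : Nat.card (fx G x) = 1 := by
    apply final11 _ (Nat.card (cen (fx G x) (a * b))) (hodd x) (by simpa using BW1)
    have h1 := card_G G hG x
    rw [hn11] at h1
    have h2 : Nat.card G ∣ Nat.card (Perm α) := Subgroup.card_subgroup_dvd_card G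
    have h3 : Nat.card α = 11 := by rw [Nat.card_eq_fintype_card, hn11]
    rw [Nat.card_perm, h3, h1] at h2
    exact h2
  have h1 := card_G G hG x
  rw [hn11, hh1] at h1
  rw [h1]
  rfl

theorem main {α : Type*} [Fintype α] [DecidableEq α] (G : Subgroup (Perm α))
    (hG : IsMultiplyPretransitive G α 4) (x : Fin 4 ↪ α)
    (hodd : Odd (Nat.card (MulAction.stabilizer G x))) :
    ((Fintype.card α = 4 ∨ Fintype.card α = 5) ∧ G = ⊤) ∨
      ((Fintype.card α = 6 ∨ Fintype.card α = 7) ∧ G = alternatingGroup α) ∨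
      (Fintype.card α = 11 ∧ Nat.card G = 7920) := by
  rw [← card_fx_eq] at hodd
  have h4 : 4 ≤ Fintype.card α := by
    have := Fintype.card_le_of_embedding x
    simpa using this
  rcases (by omega : (Fintype.card α = 4 ∨ Fintype.card α = 5) ∨
      (Fintype.card α = 6 ∨ Fintype.card α = 7) ∨ 8 ≤ Fintype.card α) with h | h | h
  · exact Or.inl ⟨h, small45 G hG x h⟩
  · exact Or.inr (Or.inl ⟨h, small67 G hG x hodd h⟩)
  · exact Or.inr (Or.inr (main8 G hG x hodd h))

end Cfsg.Agent.Lib.Helper63.H581
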